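import Mathlib
import Cfsg.Agent.Lib.Transfer.MaxAbNormal
import Cfsg.Agent.Lib.Transfer.Frat
import Cfsg.Agent.Lib.Core.Frattini

/-!
# Maximal abelian normal subgroups of bounded exponent
-/

set_option autoImplicit false

universe u

namespace Cfsg.Agent.Lib.Transfer

open Subgroup
open scoped commutatorElement

section Steps
variable {G : Type*} [Group G] [Finite G] {p : ℕ} [hp : Fact p.Prime]

/-- The commutator descent: if `⁅g, x⁆` lies in `A` for all `g`, then `x` lies in a normal subgroup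
`B ≥ A` with `B / A` cyclic generated by `x`. -/
theorem exists_central_ext (A : Subgroup G) [hA : A.Normal] {x : G} (hx : ∀ g : G, ⁅g, x⁆ ∈ A) :
    ∃ B : Subgroup G, B.Normal ∧ A ≤ B ∧ x ∈ B ∧ ∀ b ∈ B, ∃ k : ℕ, ∃ m ∈ A, b = x ^ k * m := by
  classical
  let f : G →* G ⧸ A := QuotientGroup.mk' A
  have hfs : Function.Surjective f := QuotientGroup.mk'_surjective A
  have hc : ∀ g : G ⧸ A, Commute g (f x) := by
    intro g
    obtain ⟨g, rfl⟩ := hfs g
    have h1 : f ⁅g, x⁆ = 1 := (QuotientGroup.eq_one_iff _).2 (hx g)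
    rw [map_commutatorElement, commutatorElement_eq_one_iff_commute] at h1
    exact h1
  haveI hzn : (zpowers (f x)).Normal := by
    constructor
    intro u hu g
    obtain ⟨k, rfl⟩ := hu
    have : g * (f x) ^ k * g⁻¹ = (f x) ^ k := by
      have h1 : Commute g ((f x) ^ k) := (hc g).zpow_right k
      rw [h1.eq, mul_inv_cancel_right]
    show g * (f x) ^ k * g⁻¹ ∈ _
    rw [this]
    exact Subgroup.zpow_mem_zpowers _ _
  have hMB : A ≤ (zpowers (f x)).comap f := by
    intro m hm
    rw [Subgroup.mem_comap]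
    have : f m = 1 := (QuotientGroup.eq_one_iff m).2 hm
    rw [this]
    exact Subgroup.one_mem _
  refine ⟨(zpowers (f x)).comap f, hzn.comap f, hMB, ?_, ?_⟩
  · rw [Subgroup.mem_comap]
    exact Subgroup.mem_zpowers _
  · intro b hb
    rw [Subgroup.mem_comap] at hb
    obtain ⟨k, hk⟩ := (mem_powers_iff_mem_zpowers (x := f x) (y := f b)).2 hb
    refine ⟨k, (x ^ k)⁻¹ * b, ?_, by group⟩
    rw [← QuotientGroup.eq_one_iff]
    have hk' : (f x) ^ k = f b := hk
    have : f ((x ^ k)⁻¹ * b) = 1 := by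
      rw [map_mul, map_inv, map_pow, hk', inv_mul_cancel]
    exact this

/-- The descent step. -/
theorem exists_down_step (hG : IsPGroup p G) {A W : Subgroup G} [hA : A.Normal] [hW : W.Normal] (hAW : A ≤ W)
    (hne : A ≠ W) :
    ∃ M : Subgroup G, M.Normal ∧ A ≤ M ∧ M ≤ W ∧ M ≠ W ∧ (∀ g : G, ∀ w ∈ W, ⁅g, w⁆ ∈ M) ∧
      ∀ w ∈ W, w ^ p ∈ M := by
  classical
  have hpp := hp.out
  let F : Set (Subgroup G) := {M | M.Normal ∧ A ≤ M ∧ M ≤ W ∧ M ≠ W}
  obtain ⟨M, hM⟩ := Set.Finite.exists_maximal (Set.toFinite F) ⟨A, hA, le_rfl, hAW, hne⟩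
  obtain ⟨hMn, hAM, hMW, hMne⟩ := hM.prop
  haveI := hMn
  obtain ⟨x, B, hBn, hMB, hBW, hxW, hxM, hxB, hBc, hcomm, hdesc⟩ := exists_up_step hG hMW hMne
  have hBeq : B = W := by
    by_contra hBne
    have := hM.le_of_ge (⟨hBn, hAM.trans hMB, hBW, hBne⟩ : B ∈ F) hMB
    exact hxM (this hxB)
  subst hBeq
  refine ⟨M, hMn, hAM, hMW, hMne, ?_, ?_⟩
  · intro g w hw
    obtain ⟨k, m, hm, rfl⟩ := hdesc w hw
    rw [← QuotientGroup.eq_one_iff, ← QuotientGroup.mk'_apply, map_commutatorElement,
      commutatorElement_eq_one_iff_commute]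
    have hm1 : QuotientGroup.mk' M m = 1 := (QuotientGroup.eq_one_iff m).2 hm
    rw [map_mul, hm1, mul_one, map_pow]
    apply Commute.pow_right
    have h1 := hcomm g
    rw [← QuotientGroup.eq_one_iff, ← QuotientGroup.mk'_apply, map_commutatorElement,
      commutatorElement_eq_one_iff_commute] at h1
    exact h1
  · intro w hw
    -- the quotient `B / M` has order `p`
    have hi : (M.subgroupOf B).index = p := by
      have h1 := Subgroup.card_mul_index (M.subgroupOf B)
      have h2 : Nat.card (M.subgroupOf B) = Nat.card M :=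
        Nat.card_congr (Subgroup.subgroupOfEquivOfLe hMB).toEquiv
      rw [h2, hBc, mul_comm p] at h1
      exact Nat.eq_of_mul_eq_mul_left Nat.card_pos h1
    haveI : (M.subgroupOf B).Normal := inferInstance
    have h3 : (((⟨w, hw⟩ : B) ^ p : B) : B ⧸ M.subgroupOf B) = 1 := by
      rw [QuotientGroup.mk_pow]
      have h4 : Nat.card (B ⧸ M.subgroupOf B) = p := hi
      rw [← h4]
      exact pow_card_eq_one'
    rw [QuotientGroup.eq_one_iff, Subgroup.mem_subgroupOf] at h3
    exact h3

end Steps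

variable {p : ℕ} [hp : Fact p.Prime]

theorem exists_larger_of_centralizer (q : ℕ) (hq : ∃ n, q = p ^ n) (hq2 : q ≠ 2) :
    ∀ (c : ℕ) (G : Type u) [Group G] [Finite G], Nat.card G = c → IsPGroup p G →
    ∀ A : Subgroup G, A.Normal → IsMulCommutative A → (∀ a ∈ A, a ^ q = 1) →
    ∀ x ∈ centralizer (A : Set G), x ^ q = 1 → x ∉ A →
    ∃ B : Subgroup G, B.Normal ∧ IsMulCommutative B ∧ (∀ b ∈ B, b ^ q = 1) ∧ A ≤ B ∧ A ≠ B := by
  have hpp := hp.out
  intro c
  induction c using Nat.strong_induction_on with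
  | _ c ih =>
  intro G _ _ hc hGp A hAn hAab hAq x₀ hx₀C hx₀q hx₀A
  classical
  haveI := hAn
  have hAC : A ≤ centralizer (A : Set G) := Subgroup.le_centralizer_iff_isMulCommutative.2 hAab
  haveI hCn : (centralizer (A : Set G)).Normal := inferInstance
  let Wf : G → Subgroup G := fun s => normalClosure {s} ⊔ A
  let F : Set (Subgroup G) := {W | ∃ s, s ∈ centralizer (A : Set G) ∧ s ^ q = 1 ∧ s ∉ A ∧ W = Wf s}
  obtain ⟨W, hW⟩ := Set.Finite.exists_minimal (Set.toFinite F) ⟨_, x₀, hx₀C, hx₀q, hx₀A, rfl⟩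
  obtain ⟨x, hxC, hxq, hxA, hWx⟩ := hW.prop
  have hmin : ∀ s, s ∈ centralizer (A : Set G) → s ^ q = 1 → s ∉ A → Wf s ≤ W → W ≤ Wf s :=
    fun s h1 h2 h3 h4 => hW.le_of_le (⟨s, h1, h2, h3, rfl⟩ : Wf s ∈ F) h4
  have hxnc : ∀ s : G, s ∈ normalClosure ({s} : Set G) := fun s =>
    Subgroup.subset_normalClosure (Set.mem_singleton s)
  have hxW : x ∈ W := by
    rw [hWx]
    exact (le_sup_left : normalClosure {x} ≤ Wf x) (hxnc x)
  have hAW : A ≤ W := by
    rw [hWx]
    exact le_sup_right
  haveI hWn : W.Normal := by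
    rw [hWx]
    exact Subgroup.sup_normal _ _
  have hWC : W ≤ centralizer (A : Set G) := by
    rw [hWx]
    refine sup_le (Subgroup.normalClosure_le_normal ?_) hAC
    simpa using hxC
  have hne : A ≠ W := fun h => hxA (h ▸ hxW)
  obtain ⟨M, hMn, hAM, hMW, hMne, hMc, hMp⟩ := exists_down_step hGp hAW hne
  haveI := hMn
  have hMA : ∀ s ∈ M, s ∈ centralizer (A : Set G) → s ^ q = 1 → s ∈ A := by
    intro s hsM hsC hsq
    by_contra hsA
    have h1 : Wf s ≤ M := by
      refine sup_le (Subgroup.normalClosure_le_normal ?_) hAM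
      simpa using hsM
    have h2 := hmin s hsC hsq hsA (h1.trans hMW)
    exact hMne (le_antisymm hMW (h2.trans h1))
  have hxp : x ^ p ∈ A := hMA _ (hMp x hxW) (Subgroup.pow_mem _ hxC _) (by
    rw [← pow_mul, mul_comm, pow_mul, hxq, one_pow])
  -- `W / A` is abelian
  have hWab : ∀ u ∈ W, ∀ w ∈ W, ⁅u, w⁆ ∈ A := by
    by_cases hWtop : W = ⊤
    · let f : G →* G ⧸ A := QuotientGroup.mk' A
      have hT : (zpowers x ⊔ A) ⊔ commutator G = ⊤ := by
        rw [eq_top_iff, ← hWtop, hWx]
        haveI hTn : ((zpowers x ⊔ A) ⊔ commutator G).Normal := by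
          constructor
          intro t ht g
          have e : g * t * g⁻¹ = ⁅g, t⁆ * t := by simp [commutatorElement_def]
          rw [e]
          exact Subgroup.mul_mem _
            ((le_sup_right : commutator G ≤ _) (Subgroup.commutator_mem_commutator trivial trivial)) ht
        refine sup_le (Subgroup.normalClosure_le_normal ?_) (le_sup_left.trans' le_sup_right)
        simp only [Set.singleton_subset_iff]
        exact (le_sup_left : zpowers x ⊔ A ≤ _) ((le_sup_left : zpowers x ≤ _) (mem_zpowers x))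
      have hK := Cfsg.Agent.Lib.Core.eq_top_of_sup_eq_top_of_le_frattini (commutator_le_frattini hGp) hT
      have hall : ∀ u : G, f u ∈ zpowers (f x) := by
        have hle : zpowers x ⊔ A ≤ (zpowers (f x)).comap f := by
          refine sup_le ?_ ?_
          · rw [zpowers_le]
            exact mem_zpowers _
          · intro a ha
            rw [Subgroup.mem_comap]
            have : f a = 1 := (QuotientGroup.eq_one_iff a).2 ha
            rw [this]
            exact Subgroup.one_mem _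
        intro u
        exact hle (by rw [hK]; trivial)
      intro u _ w _
      have h1 : f ⁅u, w⁆ = 1 := by
        rw [map_commutatorElement, commutatorElement_eq_one_iff_commute]
        obtain ⟨i, hi⟩ := hall u
        obtain ⟨j, hj⟩ := hall w
        have hi' : f x ^ i = f u := hi
        have hj' : f x ^ j = f w := hj
        rw [← hi', ← hj']
        exact (Commute.refl _).zpow_zpow i j
      exact (QuotientGroup.eq_one_iff _).1 h1
    · -- use the induction hypothesis on `W`
      have hlt : Nat.card W < c := by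
        rw [← hc]
        exact lt_of_le_of_ne (Subgroup.card_le_card_group W)
          (fun h => hWtop (Subgroup.eq_top_of_card_eq _ h))
      have hA'ab : IsMulCommutative (A.subgroupOf W) := by
        refine ⟨⟨fun a b => ?_⟩⟩
        apply Subtype.ext
        apply Subtype.ext
        have := hAab.is_comm.comm (⟨(a : W), (Subgroup.mem_subgroupOf.1 a.2)⟩ : A)
          ⟨(b : W), (Subgroup.mem_subgroupOf.1 b.2)⟩
        exact congrArg (fun t : A => (t : G)) this
      have hA'q : ∀ a ∈ A.subgroupOf W, a ^ q = 1 := by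
        intro a ha
        apply Subtype.ext
        exact hAq _ (Subgroup.mem_subgroupOf.1 ha)
      have hx'C : (⟨x, hxW⟩ : W) ∈ centralizer ((A.subgroupOf W : Subgroup W) : Set W) := by
        rw [Subgroup.mem_centralizer_iff]
        intro a ha
        apply Subtype.ext
        exact Subgroup.mem_centralizer_iff.1 hxC _ (Subgroup.mem_subgroupOf.1 ha)
      have hx'q : (⟨x, hxW⟩ : W) ^ q = 1 := Subtype.ext hxq
      have hx'A : (⟨x, hxW⟩ : W) ∉ A.subgroupOf W := fun h => hxA (Subgroup.mem_subgroupOf.1 h)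
      obtain ⟨B', hB'n, hB'ab, hB'q, hAB', hne'⟩ := ih (Nat.card W) hlt W rfl (hGp.to_subgroup W)
        (A.subgroupOf W) inferInstance hA'ab hA'q _ hx'C hx'q hx'A
      haveI := hB'n
      obtain ⟨y', -, -, -, -, hy'B', hy'A, -, -, hy'comm, -⟩ := exists_up_step (hGp.to_subgroup W) hAB' hne'
      set y : G := (y' : G) with hy
      have hyW : y ∈ W := y'.2
      have hyC : y ∈ centralizer (A : Set G) := by
        rw [Subgroup.mem_centralizer_iff]
        intro a ha
        have h1 : (⟨a, hAW ha⟩ : W) ∈ B' := hAB' (Subgroup.mem_subgroupOf.2 ha)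
        have := hB'ab.is_comm.comm (⟨_, h1⟩ : B') ⟨y', hy'B'⟩
        exact congrArg (fun t : B' => ((t : W) : G)) this
      have hyq : y ^ q = 1 := by
        have := hB'q y' hy'B'
        exact congrArg Subtype.val this
      have hyA : y ∉ A := fun h => hy'A (Subgroup.mem_subgroupOf.2 h)
      let Zw : Subgroup G :=
        { carrier := {w | w ∈ W ∧ ∀ u ∈ W, ⁅u, w⁆ ∈ A}
          one_mem' := ⟨W.one_mem, fun u _ => by rw [commutatorElement_one_right]; exact A.one_mem⟩
          mul_mem' := by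
            rintro a b ⟨ha, ha'⟩ ⟨hb, hb'⟩
            refine ⟨W.mul_mem ha hb, fun u hu => ?_⟩
            have e : ⁅u, a * b⁆ = ⁅u, a⁆ * (a * ⁅u, b⁆ * a⁻¹) := by
              simp only [commutatorElement_def]; group
            rw [e]
            exact A.mul_mem (ha' u hu) (hAn.conj_mem _ (hb' u hu) a)
          inv_mem' := by
            rintro a ⟨ha, ha'⟩
            refine ⟨W.inv_mem ha, fun u hu => ?_⟩
            have e : ⁅u, a⁻¹⁆ = a⁻¹ * ⁅u, a⁆⁻¹ * a⁻¹⁻¹ := by
              simp only [commutatorElement_def]; group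
            rw [e]
            exact hAn.conj_mem _ (A.inv_mem (ha' u hu)) a⁻¹ }
      have hZwmem : ∀ w, w ∈ Zw ↔ w ∈ W ∧ ∀ u ∈ W, ⁅u, w⁆ ∈ A := fun _ => Iff.rfl
      haveI hZwn : Zw.Normal := by
        constructor
        intro w hw g
        refine ⟨hWn.conj_mem w hw.1 g, fun u hu => ?_⟩
        have e : ⁅u, g * w * g⁻¹⁆ = g * ⁅g⁻¹ * u * g, w⁆ * g⁻¹ := by
          simp only [commutatorElement_def]; group
        rw [e]
        refine hAn.conj_mem _ (hw.2 _ ?_) g
        have := hWn.conj_mem u hu g⁻¹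
        simpa using this
      have hAZ : A ≤ Zw := by
        intro a ha
        refine ⟨hAW ha, fun u _ => ?_⟩
        rw [commutatorElement_def]
        exact A.mul_mem (hAn.conj_mem a ha u) (A.inv_mem ha)
      have hyZ : y ∈ Zw := by
        refine ⟨hyW, fun u hu => ?_⟩
        have := hy'comm ⟨u, hu⟩
        exact Subgroup.mem_subgroupOf.1 this
      have h1 : Wf y ≤ Zw := by
        refine sup_le (Subgroup.normalClosure_le_normal ?_) hAZ
        simpa using hyZ
      have hZW : Zw ≤ W := fun w hw => hw.1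
      have h2 := hmin y hyC hyq hyA (h1.trans hZW)
      intro u hu w hw
      exact (h1 (h2 hw)).2 u hu
  -- the commutators with `x`
  have hcx : ∀ g : G, ⁅g, x⁆ ∈ A := by
    intro g
    apply hMA _ (hMc g x hxW)
    · rw [commutatorElement_def]
      exact Subgroup.mul_mem _ (hCn.conj_mem x hxC g) (Subgroup.inv_mem _ hxC)
    · set u : G := g * x * g⁻¹ with hu
      set v : G := x⁻¹ with hv
      have huW : u ∈ W := hWn.conj_mem x hxW g
      have hvW : v ∈ W := W.inv_mem hxW
      have hc' : ⁅v, u⁆ ∈ A := hWab v hvW u huW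
      have hcu : Commute ⁅v, u⁆ u := Subgroup.mem_centralizer_iff.1 (hWC huW) _ hc'
      have hcv : Commute ⁅v, u⁆ v := Subgroup.mem_centralizer_iff.1 (hWC hvW) _ hc'
      have e : ⁅g, x⁆ = u * v := rfl
      rw [e, mul_pow_class2 hcu hcv]
      have huq : u ^ q = 1 := by rw [hu, conj_pow, hxq, mul_one, mul_inv_cancel]
      have hvq : v ^ q = 1 := by rw [hv, inv_pow, hxq, inv_one]
      have hcp : ⁅v, u⁆ ^ p = 1 := by
        rw [← comm_pow_left hcv, commutatorElement_eq_one_iff_commute]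
        have hvp : v ^ p ∈ A := by
          rw [hv, inv_pow]
          exact A.inv_mem hxp
        exact Subgroup.mem_centralizer_iff.1 (hWC huW) _ hvp
      obtain ⟨n, rfl⟩ := hq
      obtain ⟨k, hk⟩ := hpp.dvd_choose_pow (k := 2) (n := n) (by norm_num) (Ne.symm hq2)
      rw [huq, hvq, one_mul, one_mul, hk, pow_mul, hcp, one_pow]
  obtain ⟨B, hBn, hAB, hxB, hdesc⟩ := exists_central_ext A hcx
  have hcxn : ∀ a ∈ A, ∀ j : ℕ, Commute (x ^ j) a := fun a ha j =>
    Commute.pow_left ((Subgroup.mem_centralizer_iff.1 hxC a ha).symm) j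
  refine ⟨B, hBn, ?_, ?_, hAB, fun h => hxA (h ▸ hxB)⟩
  · refine ⟨⟨fun u v => ?_⟩⟩
    ext
    obtain ⟨k, m, hm, hu⟩ := hdesc u u.2
    obtain ⟨l, n, hn, hv⟩ := hdesc v v.2
    have hmn : Commute m n := by
      have := hAab.is_comm.comm (⟨m, hm⟩ : A) ⟨n, hn⟩
      exact congrArg Subtype.val this
    show (u : G) * v = v * u
    rw [hu, hv]
    have hxx : Commute (x ^ k) (x ^ l) := Commute.pow_pow_self x k l
    calc x ^ k * m * (x ^ l * n) = x ^ k * (m * x ^ l) * n := by simp only [mul_assoc]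
      _ = x ^ k * (x ^ l * m) * n := by rw [(hcxn m hm l).eq]
      _ = x ^ l * (x ^ k * m) * n := by rw [← mul_assoc (x ^ k), hxx.eq, mul_assoc (x ^ l)]
      _ = x ^ l * (x ^ k * (m * n)) := by simp only [mul_assoc]
      _ = x ^ l * (x ^ k * (n * m)) := by rw [hmn.eq]
      _ = x ^ l * (x ^ k * n) * m := by simp only [mul_assoc]
      _ = x ^ l * (n * x ^ k) * m := by rw [(hcxn n hn k).eq]
      _ = x ^ l * n * (x ^ k * m) := by simp only [mul_assoc]
  · intro b hb
    obtain ⟨k, m, hm, rfl⟩ := hdesc b hb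
    rw [(hcxn m hm k).mul_pow, hAq m hm, mul_one, ← pow_mul, mul_comm, pow_mul, hxq, one_pow]

/-- Statement of Lemma S0130. -/
theorem mem_of_max_exp (q : ℕ) (hq : ∃ n, q = p ^ n) (hq2 : q ≠ 2) {G : Type u} [Group G] [Finite G]
    (hG : IsPGroup p G) (A : Subgroup G) [hAn : A.Normal] (hA : IsMulCommutative A)
    (hAe : ∀ a ∈ A, a ^ q = 1)
    (hmax : ∀ B : Subgroup G, B.Normal → IsMulCommutative B → (∀ b ∈ B, b ^ q = 1) → A ≤ B → B = A)
    (x : G) (hx : x ∈ centralizer (A : Set G)) (hxn : x ^ q = 1) : x ∈ A := by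
  by_contra hxA
  obtain ⟨B, h1, h2, h3, h4, h5⟩ := exists_larger_of_centralizer q hq hq2 _ G rfl hG A hAn hA hAe x hx hxn hxA
  exact h5 (hmax B h1 h2 h3 h4).symm

end Cfsg.Agent.Lib.Transfer
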