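import Cfsg.Agent.Lib.Transfer.Comp
import Mathlib

/-! If `N_G(T)` does not centralize the abelian Sylow subgroup `T`, a prime `q ≠ p` acts on `T` with a proper subgroup
of fixed points. -/

set_option autoImplicit false

namespace Cfsg.Agent.Lib.Transfer

open Cfsg

variable {G : Type*} [Group G] [Finite G] {p : ℕ} [Fact p.Prime]

/-- The fixed points of an automorphism, as a subgroup. -/
def fixedSubgroupOf {T : Type*} [Group T] (a : MulAut T) : Subgroup T where
  carrier := {x | a x = x}
  one_mem' := map_one a
  mul_mem' := by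
    intro x y hx hy
    show a (x * y) = x * y
    have hx' : a x = x := hx
    have hy' : a y = y := hy
    rw [map_mul, hx', hy']
  inv_mem' := by
    intro x hx
    show a x⁻¹ = x⁻¹
    have hx' : a x = x := hx
    rw [map_inv, hx']

theorem mem_fixedSubgroupOf {T : Type*} [Group T] (a : MulAut T) (x : T) :
    x ∈ fixedSubgroupOf a ↔ a x = x := Iff.rfl

/-- An automorphism of prime order `q` has `|T| ≡ |C_T(a)| (mod q)`. -/
theorem card_modEq_fixedSubgroup {T : Type*} [Group T] [Finite T] (a : MulAut T) {q : ℕ} [Fact q.Prime]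
    (ha : orderOf a = q) : Nat.card (fixedSubgroupOf a) ≡ Nat.card T [MOD q] := by
  have hq : IsPGroup q (Subgroup.zpowers a) := by
    apply IsPGroup.iff_card.mpr
    refine ⟨1, ?_⟩
    rw [Nat.card_zpowers, ha, pow_one]
  have h1 := hq.card_modEq_card_fixedPoints T
  have h2 : Nat.card (MulAction.fixedPoints (Subgroup.zpowers a) T) = Nat.card (fixedSubgroupOf a) := by
    apply Nat.card_congr
    refine Equiv.subtypeEquivRight fun x => ?_
    constructor
    · intro h
      exact h ⟨a, Subgroup.mem_zpowers a⟩
    · rintro h ⟨b, hb⟩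
      obtain ⟨k, rfl⟩ := Subgroup.mem_zpowers_iff.mp hb
      have hk : ∀ k : ℤ, (a ^ k) x = x := by
        intro k
        have : (a ^ k) ∈ Subgroup.zpowers a := Subgroup.zpow_mem_zpowers a k
        have hle : Subgroup.zpowers a ≤ MulAction.stabilizer (MulAut T) x := by
          rw [Subgroup.zpowers_le]
          exact h
        exact hle this
      exact hk k
  rw [h2] at h1
  exact h1.symm

/-- **Counting lemma.** If the normalizer of an abelian Sylow subgroup `T` does not centralize it, then some prime `q ≠ p`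
dividing `|G|` acts on `T` with fixed subgroup of order `F`, a proper divisor of `|T|`, with `q ∣ |T| - F`. -/
theorem exists_prime_acting (T : Sylow p G) (hT : IsMulCommutative T)
    (h : ¬ Subgroup.normalizer (T : Set G) ≤ Subgroup.centralizer (T : Set G)) :
    ∃ q F : ℕ, q.Prime ∧ q ≠ p ∧ q ∣ Nat.card G ∧ F ∣ Nat.card T ∧ F < Nat.card T ∧ q ∣ (Nat.card T - F) := by
  classical
  have hp : p.Prime := Fact.out
  let f := (T : Subgroup G).normalizerMonoidHom
  have hkerT : (T : Subgroup G).subgroupOf (Subgroup.normalizer (T : Set G)) ≤ f.ker := by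
    rw [Subgroup.normalizerMonoidHom_ker]
    intro x hx
    rw [Subgroup.mem_subgroupOf] at hx ⊢
    rw [Subgroup.mem_centralizer_iff]
    intro y hy
    exact congrArg Subtype.val (hT.is_comm.comm ⟨y, hy⟩ ⟨x, hx⟩)
  -- the range is nontrivial
  have hne : f.range ≠ ⊥ := by
    intro hb
    apply h
    intro x hx
    have h1 : (⟨x, hx⟩ : Subgroup.normalizer (T : Set G)) ∈ f.ker := by
      rw [MonoidHom.range_eq_bot_iff] at hb
      rw [hb]; trivial
    rw [Subgroup.normalizerMonoidHom_ker] at h1
    exact h1
  haveI : Nontrivial f.range := (Subgroup.nontrivial_iff_ne_bot _).mpr hne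
  have hcard1 : Nat.card f.range ≠ 1 := by
    intro h1
    exact hne (Subgroup.card_eq_one.mp h1)
  obtain ⟨q, hq, hqd⟩ := Nat.exists_prime_and_dvd hcard1
  haveI : Fact q.Prime := ⟨hq⟩
  have hci : Nat.card f.range = f.ker.index := (Subgroup.index_ker f).symm
  have hdi : f.ker.index ∣ ((T : Subgroup G).subgroupOf (Subgroup.normalizer (T : Set G))).index :=
    Subgroup.index_dvd_of_le hkerT
  have hrel : ((T : Subgroup G).subgroupOf (Subgroup.normalizer (T : Set G))).index * (Subgroup.normalizer (T : Set G)).index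
      = (T : Subgroup G).index := Subgroup.relIndex_mul_index Subgroup.le_normalizer
  have hqp : q ≠ p := by
    rintro rfl
    apply T.not_dvd_index
    rw [← hrel]
    exact Dvd.dvd.mul_right (hqd.trans (hci ▸ hdi)) _
  have hqG : q ∣ Nat.card G := by
    refine hqd.trans ?_
    rw [hci]
    exact (Subgroup.index_dvd_card _).trans (Subgroup.card_subgroup_dvd_card _)
  obtain ⟨⟨a, ha⟩, hao⟩ := exists_prime_orderOf_dvd_card' q hqd
  have hao' : orderOf a = q := by simpa using hao
  have hmod := card_modEq_fixedSubgroup a hao'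
  have hF : Nat.card (fixedSubgroupOf a) ∣ Nat.card T := Subgroup.card_subgroup_dvd_card _
  have hle : Nat.card (fixedSubgroupOf a) ≤ Nat.card T := Nat.le_of_dvd Nat.card_pos hF
  refine ⟨q, Nat.card (fixedSubgroupOf a), hq, hqp, hqG, hF, lt_of_le_of_ne hle ?_, (Nat.modEq_iff_dvd' hle).mp hmod⟩
  intro he
  have htop : fixedSubgroupOf a = ⊤ := Subgroup.eq_top_of_card_eq _ he
  have ha1 : a = 1 := by
    refine MulEquiv.ext fun x => ?_
    have : x ∈ fixedSubgroupOf a := by rw [htop]; trivial
    exact this
  rw [ha1, orderOf_one] at hao'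
  exact hq.one_lt.ne hao'

end Cfsg.Agent.Lib.Transfer
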