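import Mathlib
import Cfsg.Agent.Lib.Transfer.Critical2
import Cfsg.Agent.Lib.Transfer.MaxAbNormal
import Cfsg.Prelude.Def_Transfer

/-!
# Primes dividing the automorphism group of a `p`-group of rank two
-/

set_option autoImplicit false

namespace Cfsg.Agent.Lib.Transfer

open Subgroup
open scoped commutatorElement

variable {R : Type*} [Group R] [Finite R]

/-- The number of points fixed by an automorphism of prime order `q` on an invariant subgroup. -/
theorem card_modEq_fixed {q : ℕ} [Fact q.Prime] (σ : MulAut R) (hσ : σ ^ q = 1) (T F : Subgroup R)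
    (hT : ∀ x ∈ T, σ x ∈ T) (hF : ∀ x, x ∈ F ↔ x ∈ T ∧ σ x = x) :
    Nat.card T ≡ Nat.card F [MOD q] := by
  classical
  haveI := Fintype.ofFinite T
  haveI := Fintype.ofFinite F
  let f : Function.End T := fun x => ⟨σ x, hT x x.2⟩
  have hf : ∀ (n : ℕ) (x : T), ((f ^ n) x : R) = (σ ^ n) x := by
    intro n
    induction n with
    | zero => intro x; rfl
    | succ n ih =>
      intro x
      rw [pow_succ', pow_succ']
      show ((f ((f ^ n) x) : T) : R) = _
      show σ (((f ^ n) x : T) : R) = _
      rw [ih]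
      rfl
  have hfq : f ^ q ^ 1 = 1 := by
    rw [pow_one]
    funext x
    apply Subtype.ext
    rw [hf, hσ]
    rfl
  have h := Equiv.Perm.card_fixedPoints_modEq hfq
  have e : Fintype.card (Function.fixedPoints f) = Nat.card F := by
    rw [← Nat.card_eq_fintype_card]
    apply Nat.card_congr
    exact
      { toFun := fun x => ⟨x.1.1, (hF _).2 ⟨x.1.2, congrArg Subtype.val x.2⟩⟩
        invFun := fun x => ⟨⟨x.1, ((hF _).1 x.2).1⟩, Subtype.ext ((hF _).1 x.2).2⟩
        left_inv := fun x => rfl
        right_inv := fun x => rfl }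
  rw [← Nat.card_eq_fintype_card, e] at h
  exact h

variable {p : ℕ} [hp : Fact p.Prime]

/-- Arithmetic consequence of the fixed point congruence. -/
theorem dvd_pow_sub_one_of_modEq {q a b : ℕ} (hq : q.Prime) (hqp : q ≠ p) (hab : b < a)
    (h : p ^ a ≡ p ^ b [MOD q]) : q ∣ p ^ (a - b) - 1 := by
  have hpp := hp.out
  have h1 : q ∣ p ^ a - p ^ b := (Nat.modEq_iff_dvd' (Nat.pow_le_pow_right hpp.pos hab.le)).1 h.symm
  have e : p ^ a - p ^ b = p ^ b * (p ^ (a - b) - 1) := by
    rw [Nat.mul_sub, mul_one, ← pow_add]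
    congr 2
    omega
  rw [e] at h1
  rcases (Nat.Prime.dvd_mul hq).1 h1 with h2 | h2
  · exfalso
    have := hq.dvd_of_dvd_pow h2
    exact hqp ((Nat.prime_dvd_prime_iff_eq hq hpp).1 this)
  · exact h2

theorem sub_one_dvd_sq_sub_one (p : ℕ) (hp1 : 1 ≤ p) : p - 1 ∣ p ^ 2 - 1 := by
  obtain ⟨k, rfl⟩ : ∃ k, p = k + 1 := ⟨p - 1, by omega⟩
  refine ⟨k + 2, ?_⟩
  simp only [Nat.add_sub_cancel]
  have : (k + 1) ^ 2 = k * (k + 2) + 1 := by ring
  rw [this, Nat.add_sub_cancel]

/-- A prime `q ≠ p` dividing `|Aut R|`, `R` of rank at most two, `p` odd. -/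
theorem prime_dvd_aut_of_rank_two (hodd : p ≠ 2) (hR : IsPGroup p R)
    (hrk : ∀ E : Subgroup R, Cfsg.IsElementaryAbelian p E → Nat.card E ≤ p ^ 2) (q : ℕ) (hq : q.Prime)
    (hqp : q ≠ p) (hdvd : q ∣ Nat.card (MulAut R)) : q ∣ p ^ 2 - 1 ∧ q < p := by
  classical
  have hpp := hp.out
  haveI : Fact q.Prime := ⟨hq⟩
  have hmain : q ∣ p ^ 2 - 1 := by
    obtain ⟨σ, hσ⟩ := exists_prime_orderOf_dvd_card' (G := MulAut R) q hdvd
    have hσq : σ ^ q = 1 := by rw [← hσ, pow_orderOf_eq_one]
    have hσne : σ ≠ 1 := by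
      intro h
      rw [h, orderOf_one] at hσ
      exact hq.one_lt.ne hσ
    have hco : Nat.Coprime (orderOf σ) p := by
      rw [hσ]
      exact (Nat.coprime_primes hq hpp).2 hqp
    obtain ⟨H, hch, h1, h2, h3⟩ := exists_critical hR
    haveI : H.Normal := inferInstance
    have hHinv : ∀ x ∈ H, σ x ∈ H := fun x hx => (characteristic_iff_le_comap.mp hch σ) hx
    have hmul := mul_pow_of_critical hodd H h1 h2
    have hnfix : ¬ ∀ x ∈ H, x ^ p = 1 → σ x = x := fun hfix =>
      hσne (eq_one_of_fix_normal hR σ hco H h3 (fix_of_pow_hom hR σ hco H hHinv hmul hfix))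
    -- the subgroup `E`
    let E : Subgroup R :=
      { carrier := {x | x ∈ H ∧ x ^ p = 1}
        one_mem' := ⟨H.one_mem, one_pow _⟩
        mul_mem' := fun {a b} ha hb => ⟨H.mul_mem ha.1 hb.1, by rw [hmul a ha.1 b hb.1, ha.2, hb.2, one_mul]⟩
        inv_mem' := fun {a} ha => ⟨H.inv_mem ha.1, by rw [inv_pow, ha.2, inv_one]⟩ }
    have hEmem : ∀ x, x ∈ E ↔ x ∈ H ∧ x ^ p = 1 := fun _ => Iff.rfl
    have hEinv : ∀ x ∈ E, σ x ∈ E := fun x hx => ⟨hHinv x hx.1, by rw [← map_pow, hx.2, map_one]⟩
    have hEp : IsPGroup p E := hR.to_subgroup E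
    -- abelian subgroups of `E` have order at most `p ^ 2`
    have habE : ∀ B : Subgroup E, IsMulCommutative B → Nat.card B ≤ p ^ 2 := by
      intro B hB
      have h4 : Nat.card (B.map E.subtype) = Nat.card B :=
        Nat.card_congr (Subgroup.equivMapOfInjective B E.subtype E.subtype_injective).symm.toEquiv
      rw [← h4]
      apply hrk
      refine ⟨?_, ?_⟩
      · refine ⟨⟨fun a b => ?_⟩⟩
        obtain ⟨a, u, hu, hua⟩ := a
        obtain ⟨b, v, hv, hvb⟩ := b
        apply Subtype.ext
        show a * b = b * a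
        rw [← hua, ← hvb]
        have := hB.is_comm.comm (⟨u, hu⟩ : B) ⟨v, hv⟩
        exact congrArg (fun w : B => ((w : E) : R)) this
      · rintro _ ⟨u, -, rfl⟩
        exact u.2.2
    -- `|E| ≤ p ^ 3`
    have hEcard : Nat.card E ≤ p ^ 3 := by
      let F : Set (Subgroup E) := {A | A.Normal ∧ IsMulCommutative A}
      obtain ⟨A, hAm⟩ := Set.Finite.exists_maximal (Set.toFinite F) ⟨⊥, inferInstance, inferInstance⟩
      obtain ⟨hAn, hAab⟩ := hAm.prop
      haveI := hAn
      obtain ⟨a, ha⟩ := IsPGroup.iff_card.1 (hEp.to_subgroup A)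
      have h4 := habE A hAab
      rw [ha] at h4
      have ha2 : a ≤ 2 := (Nat.pow_le_pow_iff_right hpp.one_lt).1 h4
      have h5 := card_le_of_max_abelian_normal hEp A hAab (fun B hBn hBab hAB =>
        le_antisymm (hAm.le_of_ge (⟨hBn, hBab⟩ : B ∈ F) hAB) hAB) a ha
      refine h5.trans (Nat.pow_le_pow_right hpp.pos ?_)
      interval_cases a <;> norm_num
    -- the fixed points
    let Fx : Subgroup R :=
      { carrier := {x | x ∈ E ∧ σ x = x}
        one_mem' := ⟨E.one_mem, map_one _⟩
        mul_mem' := fun {a b} ha hb => ⟨E.mul_mem ha.1 hb.1, by rw [map_mul, ha.2, hb.2]⟩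
        inv_mem' := fun {a} ha => ⟨E.inv_mem ha.1, by rw [map_inv, ha.2]⟩ }
    have hFx : ∀ x, x ∈ Fx ↔ x ∈ E ∧ σ x = x := fun _ => Iff.rfl
    have hFxE : Fx ≤ E := fun x hx => hx.1
    have hFxne : Fx ≠ E := by
      intro h
      apply hnfix
      intro x hx hxp
      have : x ∈ Fx := by rw [h]; exact ⟨hx, hxp⟩
      exact this.2
    obtain ⟨a, ha⟩ := IsPGroup.iff_card.1 hEp
    obtain ⟨b, hb⟩ := IsPGroup.iff_card.1 (hR.to_subgroup Fx)
    have hcong := card_modEq_fixed σ hσq E Fx hEinv hFx
    rw [ha, hb] at hcong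
    have hba : b < a := by
      have h4 : Nat.card Fx < Nat.card E := by
        refine lt_of_le_of_ne (Subgroup.card_le_of_le hFxE) ?_
        intro h
        exact hFxne (Subgroup.eq_of_le_of_card_ge hFxE h.ge)
      rw [ha, hb] at h4
      exact (Nat.pow_lt_pow_iff_right hpp.one_lt).1 h4
    have ha3 : a ≤ 3 := by
      rw [ha] at hEcard
      exact (Nat.pow_le_pow_iff_right hpp.one_lt).1 hEcard
    have hd := dvd_pow_sub_one_of_modEq hq hqp hba hcong
    have hcases : a - b = 1 ∨ a - b = 2 ∨ (a = 3 ∧ b = 0) := by omega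
    rcases hcases with h4 | h4 | ⟨rfl, rfl⟩
    · rw [h4, pow_one] at hd
      exact hd.trans (sub_one_dvd_sq_sub_one p hpp.one_lt.le)
    · rw [h4] at hd
      exact hd
    · -- work in the centre of `E`
      let Z : Subgroup R := E ⊓ centralizer (E : Set R)
      have hZinv : ∀ x ∈ Z, σ x ∈ Z := by
        intro x hx
        refine ⟨hEinv x hx.1, ?_⟩
        show σ x ∈ centralizer _
        rw [Subgroup.mem_centralizer_iff]
        intro y hy
        -- `y = σ (σ⁻¹ y)`, with `σ⁻¹` a power of `σ`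
        have hσinv : σ⁻¹ = σ ^ (q - 1) := by
          apply inv_eq_of_mul_eq_one_left
          rw [← pow_succ, Nat.sub_add_cancel hq.one_lt.le, hσq]
        have hinvE : ∀ n : ℕ, ∀ u ∈ E, (σ ^ n) u ∈ E := by
          intro n
          induction n with
          | zero => intro u hu; exact hu
          | succ n ih =>
            intro u hu
            rw [pow_succ']
            exact hEinv _ (ih u hu)
        have hy' : σ⁻¹ y ∈ E := by
          rw [hσinv]
          exact hinvE _ y hy
        have h5 := Subgroup.mem_centralizer_iff.1 hx.2 _ hy'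
        have h6 := congrArg σ h5
        rw [map_mul, map_mul] at h6
        have h7 : σ (σ⁻¹ y) = y := by
          show (σ * σ⁻¹) y = y
          rw [mul_inv_cancel]; rfl
        rwa [h7] at h6
      let FZ : Subgroup R :=
        { carrier := {x | x ∈ Z ∧ σ x = x}
          one_mem' := ⟨Z.one_mem, map_one _⟩
          mul_mem' := fun {a b} ha hb => ⟨Z.mul_mem ha.1 hb.1, by rw [map_mul, ha.2, hb.2]⟩
          inv_mem' := fun {a} ha => ⟨Z.inv_mem ha.1, by rw [map_inv, ha.2]⟩ }
      have hFZ : ∀ x, x ∈ FZ ↔ x ∈ Z ∧ σ x = x := fun _ => Iff.rfl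
      have hFZbot : Nat.card FZ = 1 := by
        have h4 : FZ ≤ Fx := fun x hx => ⟨hx.1.1, hx.2⟩
        have h5 := Subgroup.card_le_of_le h4
        rw [hb, pow_zero] at h5
        exact le_antisymm h5 Nat.card_pos
      have hcong2 := card_modEq_fixed σ hσq Z FZ hZinv hFZ
      rw [hFZbot] at hcong2
      obtain ⟨c, hc⟩ := IsPGroup.iff_card.1 (hR.to_subgroup Z)
      rw [hc] at hcong2
      -- `Z ≠ 1`
      have hc0 : c ≠ 0 := by
        rintro rfl
        rw [pow_zero] at hc
        -- centre of the nontrivial `p`-group `E` is nontrivial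
        have h5 : Nontrivial E := Finite.one_lt_card_iff_nontrivial.1 (by
          rw [ha]
          exact Nat.one_lt_pow (by norm_num) hpp.one_lt)
        have h6 : Nontrivial (center E) := IsPGroup.center_nontrivial hEp
        obtain ⟨u, hu⟩ := exists_ne (1 : center E)
        have hZb : Z = ⊥ := Subgroup.eq_bot_of_card_eq Z hc
        have h7 : ((u : E) : R) ∈ Z := by
          refine ⟨(u : E).2, ?_⟩
          show _ ∈ centralizer _
          rw [Subgroup.mem_centralizer_iff]
          intro y hy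
          have h8 := (Subgroup.mem_center_iff.1 u.2) ⟨y, hy⟩
          exact congrArg Subtype.val h8
        rw [hZb, Subgroup.mem_bot] at h7
        apply hu
        apply Subtype.ext
        apply Subtype.ext
        exact h7
      -- `Z ≠ E`
      have hcle : c < 3 := by
        by_contra hcon
        push Not at hcon
        have h5 : Z = E := by
          apply Subgroup.eq_of_le_of_card_ge inf_le_left
          rw [hc, ha]
          exact Nat.pow_le_pow_right hpp.pos hcon
        have h6 : IsMulCommutative E := by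
          refine ⟨⟨fun u v => Subtype.ext ?_⟩⟩
          have hv : (v : R) ∈ Z := by rw [h5]; exact v.2
          exact (Subgroup.mem_centralizer_iff.1 hv.2 u u.2)
        have h7 := hrk E ⟨h6, fun u hu => hu.2⟩
        rw [ha] at h7
        have := (Nat.pow_le_pow_iff_right hpp.one_lt).1 h7
        omega
      have hc12 : c = 1 ∨ c = 2 := by omega
      have h8 := dvd_pow_sub_one_of_modEq hq hqp (a := c) (b := 0) (by omega) (by simpa using hcong2)
      rcases hc12 with rfl | rfl
      · simp only [Nat.sub_zero, pow_one] at h8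
        exact h8.trans (sub_one_dvd_sq_sub_one p hpp.one_lt.le)
      · simpa using h8
  refine ⟨hmain, ?_⟩
  have h1 : p ^ 2 - 1 = (p - 1) * (p + 1) := by
    obtain ⟨k, rfl⟩ : ∃ k, p = k + 1 := ⟨p - 1, by have := hpp.one_lt; omega⟩
    simp only [Nat.add_sub_cancel]
    have : (k + 1) ^ 2 = k * (k + 1 + 1) + 1 := by ring
    rw [this, Nat.add_sub_cancel]
  rw [h1] at hmain
  rcases (Nat.Prime.dvd_mul hq).1 hmain with h2 | h2
  · have := Nat.le_of_dvd (by have := hpp.one_lt; omega) h2
    have := hpp.one_lt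
    omega
  · have h3 := Nat.le_of_dvd (by omega) h2
    have h4 : q ≠ p + 1 := by
      intro h
      have hodd' := hpp.odd_of_ne_two hodd
      have heven : Even (p + 1) := hodd'.add_one
      rw [← h] at heven
      have := hq.even_iff.1 heven
      have := hpp.two_le
      omega
    have h5 : q ≠ p := hqp
    omega

end Cfsg.Agent.Lib.Transfer
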