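import Mathlib
import Cfsg.Agent.Lib.Transfer.Critical2
import Cfsg.Prelude.Def_Transfer

/-!
# Special groups from coprime automorphisms acting trivially on characteristic abelian subgroups
-/

set_option autoImplicit false

namespace Cfsg.Agent.Lib.Transfer

open Subgroup
open scoped commutatorElement

variable {G : Type*} [Group G] {p : ℕ}

theorem mem_center_of_gens (A : Subgroup (MulAut G))
    (hGA : closure {x : G | ∃ g : G, ∃ a ∈ A, x = g⁻¹ * a g} = ⊤) (z : G)
    (h : ∀ g : G, ∀ a ∈ A, (g⁻¹ * a g) * z = z * (g⁻¹ * a g)) : z ∈ center G := by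
  have hle : closure {x : G | ∃ g : G, ∃ a ∈ A, x = g⁻¹ * a g} ≤ centralizer ({z} : Set G) := by
    rw [closure_le]
    rintro _ ⟨g, a, ha, rfl⟩
    show _ ∈ centralizer _
    rw [Subgroup.mem_centralizer_iff]
    rintro _ rfl
    exact (h g a ha).symm
  rw [hGA] at hle
  rw [Subgroup.mem_center_iff]
  intro g
  have := hle (Subgroup.mem_top g)
  rw [Subgroup.mem_centralizer_iff] at this
  exact (this z rfl).symm

/-- A normal subgroup centralized by `A` is central, if `G = [G, A]`. -/
theorem le_center_of_fix (A : Subgroup (MulAut G))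
    (hGA : closure {x : G | ∃ g : G, ∃ a ∈ A, x = g⁻¹ * a g} = ⊤) (N : Subgroup G) [hN : N.Normal]
    (hfix : ∀ a ∈ A, ∀ n ∈ N, a n = n) : N ≤ center G := by
  intro n hn
  apply mem_center_of_gens A hGA
  intro g a ha
  have h1 : a (g * n * g⁻¹) = g * n * g⁻¹ := hfix a ha _ (hN.conj_mem n hn g)
  rw [map_mul, map_mul, map_inv, hfix a ha n hn] at h1
  have e : (g⁻¹ * a g) * n = g⁻¹ * (a g * n * (a g)⁻¹) * a g := by group
  rw [e, h1]
  group

theorem special_of_char_fix [Finite G] [hp : Fact p.Prime] (hG : IsPGroup p G) (A : Subgroup (MulAut G))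
    (hA : Nat.Coprime (Nat.card A) p)
    (hGA : closure {x : G | ∃ g : G, ∃ a ∈ A, x = g⁻¹ * a g} = ⊤)
    (hchar : ∀ H : Subgroup G, H.Characteristic → IsMulCommutative H → ∀ a ∈ A, ∀ h ∈ H, a h = h) :
    Cfsg.IsSpecial p G ∧ (∀ g : G, (g ∈ center G ↔ ∀ a ∈ A, a g = g)) := by
  classical
  have hZfix : ∀ a ∈ A, ∀ z ∈ center G, a z = z :=
    hchar (center G) inferInstance inferInstance
  obtain ⟨H, hch, h1, h2, h3⟩ := exists_critical hG
  haveI : H.Normal := inferInstance
  -- `Z(H)` is central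
  have hZH : H ⊓ centralizer (H : Set G) ≤ center G := by
    haveI : (H ⊓ centralizer (H : Set G)).Characteristic := inferInstance
    apply le_center_of_fix A hGA
    apply hchar _ inferInstance
    refine ⟨⟨fun x y => ?_⟩⟩
    ext
    exact (Subgroup.mem_centralizer_iff.1 y.2.2) x x.2.1
  have hcenZ : centralizer (H : Set G) ≤ center G := fun x hx => hZH ⟨h3 hx, hx⟩
  -- class two
  have hcommH : commutator G ≤ centralizer (H : Set G) := by
    have h4 : ⁅⁅(⊤ : Subgroup G), H⁆, (⊤ : Subgroup G)⁆ = ⊥ := by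
      rw [eq_bot_iff, Subgroup.commutator_le]
      intro x hx y _
      have hx' : x ∈ center G := by
        have h5 : ⁅(⊤ : Subgroup G), H⁆ ≤ H ⊓ centralizer (H : Set G) := by
          rw [Subgroup.commutator_le]
          intro r _ c hc
          exact h2 r c hc
        exact hZH (h5 hx)
      rw [Subgroup.mem_bot, commutatorElement_eq_one_iff_commute]
      exact (Subgroup.mem_center_iff.1 hx' y).symm
    have h6 : ⁅⁅H, (⊤ : Subgroup G)⁆, (⊤ : Subgroup G)⁆ = ⊥ := by
      rw [Subgroup.commutator_comm H ⊤]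
      exact h4
    have h7 := Subgroup.commutator_commutator_eq_bot_of_rotate h4 h6
    rw [eq_bot_iff, Subgroup.commutator_le] at h7
    show ⁅(⊤ : Subgroup G), (⊤ : Subgroup G)⁆ ≤ _
    intro x hx
    rw [Subgroup.mem_centralizer_iff]
    intro h hh
    have := h7 x hx h hh
    rw [Subgroup.mem_bot, commutatorElement_eq_one_iff_commute] at this
    exact this.symm
  have hcomm : commutator G ≤ center G := hcommH.trans hcenZ
  have hcentral : ∀ x y : G, ⁅x, y⁆ ∈ center G := fun x y =>
    hcomm (Subgroup.commutator_mem_commutator trivial trivial)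
  -- fixed points
  have hfixcen : ∀ x : G, (∀ a ∈ A, a x = x) → x ∈ center G := by
    intro x hx
    apply mem_center_of_gens A hGA
    intro g a ha
    have h4 : a ⁅x, g⁆ = ⁅x, g⁆ := hZfix a ha _ (hcentral x g)
    rw [commutatorElement_def, map_mul, map_mul, map_mul, map_inv, map_inv,
      hx a ha] at h4
    have h5 : a g * x⁻¹ * (a g)⁻¹ = g * x⁻¹ * g⁻¹ := by
      have := mul_left_cancel (a := x) (b := a g * x⁻¹ * (a g)⁻¹) (c := g * x⁻¹ * g⁻¹)
        (by simpa [mul_assoc] using h4)
      exact this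
    have h6 : (g⁻¹ * a g) * x⁻¹ = x⁻¹ * (g⁻¹ * a g) := by
      have e : (g⁻¹ * a g) * x⁻¹ = g⁻¹ * (a g * x⁻¹ * (a g)⁻¹) * a g := by group
      rw [e, h5]
      group
    have h7 : Commute (g⁻¹ * a g) x⁻¹ := h6
    exact (Commute.inv_right_iff.1 h7)
  -- `Z(G) ≤ G'`
  haveI : Fintype A := Fintype.ofFinite A
  let f : G →* Abelianization G := MonoidHom.mk' (fun g => ∏ a : A, Abelianization.of ((a : MulAut G) g))
    (fun x y => by
      simp only [map_mul]
      exact Finset.prod_mul_distrib)
  have hfapp : ∀ g, f g = ∏ a : A, Abelianization.of ((a : MulAut G) g) := fun g => rfl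
  have hfinv : ∀ g, ∀ a ∈ A, f (a g) = f g := by
    intro g a ha
    rw [hfapp, hfapp]
    exact Equiv.prod_comp (Equiv.mulRight (⟨a, ha⟩ : A)) (fun b : A => Abelianization.of ((b : MulAut G) g))
  have hf1 : f.ker = ⊤ := by
    rw [eq_top_iff, ← hGA, closure_le]
    rintro _ ⟨g, a, ha, rfl⟩
    show _ ∈ f.ker
    rw [MonoidHom.mem_ker, map_mul, map_inv, hfinv g a ha, inv_mul_cancel]
  have hZG' : center G ≤ commutator G := by
    intro z hz
    have h4 : f z = 1 := by
      have : z ∈ f.ker := by rw [hf1]; trivial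
      exact this
    rw [hfapp] at h4
    have h5 : (∏ a : A, Abelianization.of ((a : MulAut G) z)) = (Abelianization.of z) ^ Nat.card A := by
      rw [Nat.card_eq_fintype_card, ← Finset.card_univ, ← Finset.prod_const]
      exact Finset.prod_congr rfl (fun a _ => by rw [hZfix a a.2 z hz])
    rw [h5] at h4
    obtain ⟨k, hk⟩ := hG z
    have h6 : (Abelianization.of z) ^ p ^ k = 1 := by rw [← map_pow, hk, map_one]
    have h7 : orderOf (Abelianization.of z) = 1 := Nat.Coprime.eq_one_of_dvd
      (Nat.Coprime.coprime_dvd_left (orderOf_dvd_of_pow_eq_one h4) (hA.pow_right k))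
      (orderOf_dvd_of_pow_eq_one h6)
    rw [orderOf_eq_one_iff] at h7
    have h8 : z ∈ (Abelianization.of : G →* Abelianization G).ker := h7
    rwa [Abelianization.ker_of] at h8
  -- the exponent of `G / Z(G)`
  have hstep : ∀ e : ℕ, (∀ g : G, g ^ p ^ (e + 2) ∈ center G) → ∀ g : G, g ^ p ^ (e + 1) ∈ center G := by
    intro e he g
    let S : Set G := {x | ∃ y : G, x = y ^ p ^ (e + 1)}
    have hcomm' : ∀ x ∈ S, ∀ y ∈ S, x * y = y * x := by
      rintro _ ⟨x, rfl⟩ _ ⟨y, rfl⟩
      have hcx : Commute ⁅x, y⁆ x := (Subgroup.mem_center_iff.1 (hcentral x y) x).symm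
      have hcy : Commute ⁅x, y⁆ y := (Subgroup.mem_center_iff.1 (hcentral x y) y).symm
      have h4 : ⁅x, y⁆ ^ p ^ (e + 2) = 1 := by
        rw [← comm_pow_left hcx, commutatorElement_eq_one_iff_commute]
        exact (Subgroup.mem_center_iff.1 (he x) y).symm
      have h5 : ⁅x ^ p ^ (e + 1), y ^ p ^ (e + 1)⁆ = ⁅x, y⁆ ^ (p ^ (e + 1) * p ^ (e + 1)) := by
        have hcx' : Commute ⁅x, y ^ p ^ (e + 1)⁆ x :=
          (Subgroup.mem_center_iff.1 (hcentral x _) x).symm
        rw [comm_pow_left hcx', comm_pow_right hcy, ← pow_mul]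
      have h6 : p ^ (e + 1) * p ^ (e + 1) = p ^ (e + 2) * p ^ e := by ring
      rw [h6, pow_mul, h4, one_pow, commutatorElement_eq_one_iff_commute] at h5
      exact h5
    have hcl := isMulCommutative_closure hcomm'
    have hchS : (closure S).Characteristic := by
      rw [characteristic_iff_le_comap]
      intro φ
      rw [closure_le]
      rintro _ ⟨y, rfl⟩
      show φ (y ^ p ^ (e + 1)) ∈ closure S
      rw [map_pow]
      exact subset_closure ⟨φ y, rfl⟩
    haveI : (closure S).Normal := inferInstance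
    have h4 := le_center_of_fix A hGA (closure S) (hchar _ hchS hcl)
    exact h4 (subset_closure ⟨g, rfl⟩)
  have hdesc : ∀ n : ℕ, (∀ g : G, g ^ p ^ (n + 1) ∈ center G) → ∀ g : G, g ^ p ∈ center G := by
    intro n
    induction n with
    | zero =>
      intro h g
      simpa using h g
    | succ n ih =>
      intro h
      exact ih (hstep n h)
  have hpow : ∀ g : G, g ^ p ∈ center G := by
    obtain ⟨n, hn⟩ := IsPGroup.iff_card.1 hG
    apply hdesc n
    intro g
    have : g ^ p ^ n = 1 := by rw [← hn]; exact pow_card_eq_one'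
    rw [pow_succ, pow_mul, this, one_pow]
    exact Subgroup.one_mem _
  have hcommeq : commutator G = center G := le_antisymm hcomm hZG'
  refine ⟨⟨hG, ?_, hcommeq⟩, fun g => ⟨fun hg a ha => hZfix a ha g hg, hfixcen g⟩⟩
  apply le_antisymm
  · exact frattini_le_of_elementary hG (center G) hcomm hpow
  · rw [← hcommeq]
    exact commutator_le_frattini hG

end Cfsg.Agent.Lib.Transfer
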