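import Mathlib
import Cfsg.Agent.Lib.Transfer.CycIndexP

/-!
# The classification of odd non-abelian `p`-groups with cyclic maximal subgroup
-/

set_option autoImplicit false

namespace Cfsg.Agent.Lib.Transfer

open Subgroup
open scoped commutatorElement

variable {R : Type*} [Group R] [Finite R] {p : ℕ} [hp : Fact p.Prime]

theorem classify_cyc_index_odd (hodd : p ≠ 2) (n : ℕ) (hn : 3 ≤ n) (hG : Nat.card R = p ^ n) (C : Subgroup R)
    (hC : IsCyclic C) (hCi : C.index = p) (hna : ∃ x y : R, x * y ≠ y * x) :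
    ∃ a b : R, orderOf a = p ^ (n - 1) ∧ orderOf b = p ∧ b ∉ zpowers a ∧ b * a * b⁻¹ = a ^ (1 + p ^ (n - 2)) := by
  classical
  have hpp := hp.out
  have hR : IsPGroup p R := IsPGroup.of_card hG
  have hnc : ¬ IsCyclic R := by
    intro h
    obtain ⟨x, y, hxy⟩ := hna
    haveI := h
    exact hxy (IsMulCommutative.is_comm.comm x y)
  obtain ⟨g, hg⟩ := hC
  set a : R := (g : R) with ha
  have hCa : C = zpowers a := by
    apply le_antisymm
    · intro u hu
      obtain ⟨k, hk⟩ := hg ⟨u, hu⟩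
      refine ⟨k, ?_⟩
      have := congrArg Subtype.val hk
      simpa using this
    · rw [zpowers_le]
      exact g.2
  have hCi' := hCi
  rw [hCa] at hCi'
  obtain ⟨hE, hEc⟩ := omega_of_cyc_index hodd hR hnc C ⟨g, hg⟩ hCi
  have hcomm := comm_central_of_cyc_index hodd hR a hCi'
  have hco : IsCoatom (zpowers a) := Cfsg.Agent.Lib.PGroup.isCoatom_of_index_prime (by rw [hCi']; exact hpp)
  haveI hCn : (zpowers a).Normal := Cfsg.Agent.Lib.PGroup.normal_of_index_eq_prime hR hCi'
  have horder : orderOf a = p ^ (n - 1) := by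
    have h1 := Subgroup.card_mul_index (zpowers a)
    rw [hCi', Nat.card_zpowers, hG] at h1
    have e : p ^ n = p ^ (n - 1) * p := by
      rw [← pow_succ]; congr 1; omega
    rw [e] at h1
    exact Nat.eq_of_mul_eq_mul_right hpp.pos h1
  set z : R := a ^ p ^ (n - 2) with hz
  have hzp : z ^ p = 1 := by
    rw [hz, ← pow_mul, ← pow_succ]
    have e : n - 2 + 1 = n - 1 := by omega
    rw [e, ← horder, pow_orderOf_eq_one]
  have hzord : orderOf z = p := by
    rw [hz, orderOf_pow' a (pow_ne_zero _ hpp.ne_zero), horder]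
    have e : p ^ (n - 1) = p ^ (n - 2) * p := by
      rw [← pow_succ]; congr 1; omega
    rw [Nat.gcd_eq_right (pow_dvd_pow p (by omega)), e, Nat.mul_div_cancel_left _ (pow_pos hpp.pos _)]
  -- elements of `⟨a⟩` of order dividing `p` are in `⟨z⟩`
  have hinz : ∀ u ∈ zpowers a, u ^ p = 1 → u ∈ zpowers z := by
    intro u hu hup
    rw [← mem_powers_iff_mem_zpowers] at hu
    obtain ⟨s, hs⟩ := hu
    replace hs : a ^ s = u := hs
    rw [← hs, ← pow_mul, ← orderOf_dvd_iff_pow_eq_one, horder] at hup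
    have e : p ^ (n - 1) = p ^ (n - 2) * p := by
      rw [← pow_succ]; congr 1; omega
    rw [e, mul_comm s p, mul_comm (p ^ (n - 2))] at hup
    obtain ⟨t, rfl⟩ := Nat.dvd_of_mul_dvd_mul_left hpp.pos hup
    rw [← hs, pow_mul]
    exact Subgroup.npow_mem_zpowers _ _
  -- an element of order `p` outside `⟨a⟩`
  obtain ⟨b₀, hb₀E, hb₀⟩ : ∃ b₀ ∈ closure {x : R | x ^ p = 1}, b₀ ∉ zpowers a := by
    by_contra hcon
    push Not at hcon
    have h1 : closure {x : R | x ^ p = 1} ≤ zpowers z := fun u hu =>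
      hinz u (hcon u hu) (hE.2 u hu)
    have h2 := Subgroup.card_le_of_le h1
    rw [hEc, Nat.card_zpowers, hzord, sq] at h2
    have := Nat.le_of_mul_le_mul_left (a := p) (by rwa [mul_one]) hpp.pos
    have := hpp.two_le
    omega
  have hb₀p : b₀ ^ p = 1 := hE.2 b₀ hb₀E
  -- the commutator
  have hcmem : ⁅b₀, a⁆ ∈ zpowers z := by
    apply hinz _ _ (hcomm b₀ a).2.2
    rw [commutatorElement_def]
    exact Subgroup.mul_mem _ (hCn.conj_mem a (mem_zpowers a) b₀) (Subgroup.inv_mem _ (mem_zpowers a))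
  rw [← mem_powers_iff_mem_zpowers] at hcmem
  obtain ⟨t, ht⟩ := hcmem
  replace ht : z ^ t = ⁅b₀, a⁆ := ht
  -- `b₀` does not commute with `a`
  have hgen : closure ({a, b₀} : Set R) = ⊤ := by
    apply hco.2
    refine lt_of_le_of_ne ?_ ?_
    · rw [zpowers_le]
      exact subset_closure (by simp)
    · intro h
      apply hb₀
      rw [h]
      exact subset_closure (by simp)
  have hnoncomm : ⁅b₀, a⁆ ≠ 1 := by
    intro h
    rw [commutatorElement_eq_one_iff_commute] at h
    have hab := Subgroup.isMulCommutative_closure (G := R) (k := {a, b₀}) (by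
      rintro _ (rfl | rfl) _ (rfl | rfl)
      · rfl
      · exact h.symm.eq
      · exact h.eq
      · rfl)
    rw [hgen] at hab
    obtain ⟨x, y, hxy⟩ := hna
    apply hxy
    have := hab.is_comm.comm (⟨x, trivial⟩ : (⊤ : Subgroup _)) ⟨y, trivial⟩
    exact congrArg Subtype.val this
  have hpt : ¬ p ∣ t := by
    rintro ⟨w, rfl⟩
    apply hnoncomm
    rw [← ht, pow_mul, hzp, one_pow]
  -- the inverse
  obtain ⟨w, hw⟩ := Nat.exists_mul_mod_eq_one_of_coprime ((Nat.Prime.coprime_iff_not_dvd hpp).2 hpt).symm hpp.one_lt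
  have hzw : z ^ (t * w) = z := by
    have h1 := Nat.div_add_mod (t * w) p
    rw [hw.2] at h1
    rw [← h1, pow_add, pow_mul, hzp, one_pow, one_mul, pow_one]
  have hb₀c : Commute ⁅b₀, a⁆ b₀ := (hcomm b₀ a).1
  have hcw : ⁅b₀ ^ w, a⁆ = z := by
    rw [comm_pow_left hb₀c, ← ht, ← pow_mul, hzw]
  refine ⟨a, b₀ ^ w, horder, ?_, ?_, ?_⟩
  · apply orderOf_eq_prime
    · rw [← pow_mul, mul_comm, pow_mul, hb₀p, one_pow]
    · intro h
      rw [h, commutatorElement_one_left] at hcw
      rw [← hcw, orderOf_one] at hzord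
      exact hpp.one_lt.ne hzord
  · intro h
    have hc : Commute (b₀ ^ w) a := by
      obtain ⟨k, hk⟩ := h
      rw [← hk]
      exact (Commute.refl a).zpow_left k
    rw [(commutatorElement_eq_one_iff_commute).2 hc] at hcw
    rw [← hcw, orderOf_one] at hzord
    exact hpp.one_lt.ne hzord
  · have h1 : b₀ ^ w * a * (b₀ ^ w)⁻¹ * a⁻¹ = z := hcw
    have h2 : b₀ ^ w * a * (b₀ ^ w)⁻¹ = z * a := by
      rw [← h1]; group
    rw [h2, hz, pow_add, pow_one]
    exact ((Commute.refl a).pow_left _).eq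

end Cfsg.Agent.Lib.Transfer
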