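import Mathlib
import Cfsg.Agent.Lib.InvolChar.Transfer
import Cfsg.Agent.Lib.Techniques.ExtremalConj
import Cfsg.Agent.Lib.Core.Basic
import Cfsg.Agent.Lib.Core.Conj
import Cfsg.Prelude.Def_Transfer

/-!
# Groups with dihedral Sylow `2`-subgroups and no quotient of order two
-/

set_option autoImplicit false

namespace Cfsg.Agent.Lib.Transfer

open Subgroup

variable {G : Type*} [Group G] [Finite G]

/-- Every homomorphism to `ℤ/2` is trivial when `O^2(G) = G`. -/
theorem orderOf_conj_eq (g u : G) : orderOf (g * u * g⁻¹) = orderOf u := by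
  rw [← MulAut.conj_apply]
  exact MulEquiv.orderOf_eq _ _

theorem hom_trivial_of_residual (hO : Cfsg.pResidual 2 G = ⊤) (τ : G →* Multiplicative (ZMod 2)) (g : G) : τ g = 1 := by
  have hle : Cfsg.pResidual 2 G ≤ τ.ker := by
    rw [Cfsg.pResidual, closure_le]
    intro u hu
    have hu' : Nat.Coprime (orderOf u) 2 := hu
    show τ u = 1
    have h1 : (τ u) ^ orderOf u = 1 := by rw [← map_pow, pow_orderOf_eq_one, map_one]
    have h2 : (τ u) ^ 2 = 1 := by
      have h3 : Nat.card (Multiplicative (ZMod 2)) = 2 := by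
        rw [Nat.card_congr Multiplicative.toAdd, Nat.card_zmod]
      have h4 := pow_card_eq_one' (G := Multiplicative (ZMod 2)) (x := τ u)
      rwa [h3] at h4
    have h3 : orderOf (τ u) = 1 := Nat.Coprime.eq_one_of_dvd
      (Nat.Coprime.coprime_dvd_left (orderOf_dvd_of_pow_eq_one h1) hu') (orderOf_dvd_of_pow_eq_one h2)
    exact orderOf_eq_one_iff.1 h3
  rw [hO] at hle
  exact hle (Subgroup.mem_top g)

theorem conj_involutions_of_dihedral (T : Sylow 2 G) (n : ℕ) (hn : 1 ≤ n)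
    (hT : Nonempty ((T : Subgroup G) ≃* DihedralGroup (2 ^ n))) (hO : Cfsg.pResidual 2 G = ⊤) (x y : G)
    (hx : orderOf x = 2) (hy : orderOf y = 2) : ∃ g : G, g * x * g⁻¹ = y := by
  classical
  haveI hp2 : Fact (Nat.Prime 2) := ⟨Nat.prime_two⟩
  obtain ⟨e⟩ := hT
  haveI : NeZero (2 ^ n) := ⟨by positivity⟩
  let a₀ : (T : Subgroup G) := e.symm (DihedralGroup.r 1)
  have ha₀ : orderOf a₀ = 2 ^ n := by
    rw [MulEquiv.orderOf_eq]
    exact DihedralGroup.orderOf_r_one
  set a : G := (a₀ : G) with ha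
  have haord : orderOf a = 2 ^ n := by rw [ha, Subgroup.orderOf_coe, ha₀]
  have haT : a ∈ (T : Subgroup G) := a₀.2
  have hle : zpowers a ≤ (T : Subgroup G) := (Subgroup.zpowers_le).2 haT
  have hTc : Nat.card (T : Subgroup G) = 2 * 2 ^ n := by
    rw [Nat.card_congr e.toEquiv, DihedralGroup.nat_card]
  have hrel : (zpowers a).relIndex (T : Subgroup G) = 2 := by
    have h1 := Subgroup.card_mul_index ((zpowers a).subgroupOf (T : Subgroup G))
    have h2 : Nat.card ((zpowers a).subgroupOf (T : Subgroup G)) = Nat.card (zpowers a) :=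
      Nat.card_congr (Subgroup.subgroupOfEquivOfLe hle).toEquiv
    rw [h2, Nat.card_zpowers, haord, hTc, mul_comm] at h1
    exact Nat.eq_of_mul_eq_mul_right (by positivity) h1
  have hodd : ¬ 2 ∣ (T : Subgroup G).index := T.not_dvd_index
  obtain ⟨τ, hτ⟩ := Cfsg.Agent.Lib.InvolChar.exists_parity_transfer hodd hrel
  have hconj : ∀ u ∈ (T : Subgroup G), orderOf u = 2 → ∃ g : G, g * u * g⁻¹ ∈ zpowers a := by
    intro u hu huo
    by_contra hcon
    push Not at hcon
    refine hτ u hu 1 le_rfl (by simpa using huo) hcon (fun w hw hw' => ?_) (hom_trivial_of_residual hO τ u)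
    have h1 : w ≠ 1 := by
      rintro rfl
      exact hw' (Subgroup.one_mem _)
    have h2 : orderOf w ≠ 1 := fun h => h1 (orderOf_eq_one_iff.1 h)
    have h3 : 0 < orderOf w := orderOf_pos w
    simp only [Nat.sub_self, pow_zero]
    omega
  -- the unique involution of `⟨a⟩`
  set z : G := a ^ 2 ^ (n - 1) with hz
  have hzp : z ^ 2 = 1 := by
    rw [hz, ← pow_mul, ← pow_succ]
    have e2 : n - 1 + 1 = n := by omega
    rw [e2, ← haord, pow_orderOf_eq_one]
  have hzne : z ≠ 1 := by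
    intro h
    have h1 := orderOf_dvd_of_pow_eq_one h
    rw [haord] at h1
    have h2 := (Nat.pow_dvd_pow_iff_le_right (by norm_num : 1 < 2)).1 h1
    omega
  have hzmem : z ∈ zpowers a := Subgroup.npow_mem_zpowers _ _
  have hall : ∀ u : G, orderOf u = 2 → ∃ g : G, g * u * g⁻¹ = z := by
    intro u huo
    -- conjugate into `T`
    obtain ⟨Q, hQ⟩ := IsPGroup.exists_le_sylow (p := 2) (P := zpowers u)
      (IsPGroup.of_card (n := 1) (by rw [Nat.card_zpowers, huo, pow_one]))
    obtain ⟨g₁, hg₁⟩ := MulAction.exists_smul_eq G Q T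
    have hmem : g₁ * u * g₁⁻¹ ∈ (T : Subgroup G) := by
      rw [← hg₁, Sylow.coe_subgroup_smul, Cfsg.Agent.Lib.Core.mem_conj_smul_iff]
      have : g₁⁻¹ * (g₁ * u * g₁⁻¹) * g₁ = u := by group
      rw [this]
      exact hQ (mem_zpowers u)
    have hord1 : orderOf (g₁ * u * g₁⁻¹) = 2 := by
      rw [← huo]
      exact orderOf_conj_eq _ _
    obtain ⟨g₂, hg₂⟩ := hconj _ hmem hord1
    set v := g₂ * (g₁ * u * g₁⁻¹) * g₂⁻¹ with hv
    have hvp : v ^ 2 = 1 := by
      rw [hv, conj_pow, conj_pow, ← huo, pow_orderOf_eq_one]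
      simp
    have hvne : v ≠ 1 := by
      intro h
      have h1 : orderOf v = 2 := by
        rw [hv, ← huo]
        rw [show g₂ * (g₁ * u * g₁⁻¹) * g₂⁻¹ = (g₂ * g₁) * u * (g₂ * g₁)⁻¹ by group]
        exact orderOf_conj_eq _ _
      rw [h, orderOf_one] at h1
      omega
    have hvz : (⟨v, hg₂⟩ : zpowers a) = ⟨z, hzmem⟩ :=
      Cfsg.Agent.Lib.Techniques.eq_of_sq_eq_one_of_isCyclic (Subtype.ext hvp) (Subtype.ext hzp)
        (fun h => hvne (congrArg Subtype.val h)) (fun h => hzne (congrArg Subtype.val h))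
    refine ⟨g₂ * g₁, ?_⟩
    have h1 : v = z := congrArg Subtype.val hvz
    rw [← h1, hv]
    group
  obtain ⟨g, hg⟩ := hall x hx
  obtain ⟨h, hh⟩ := hall y hy
  refine ⟨h⁻¹ * g, ?_⟩
  have e2 : h⁻¹ * g * x * (h⁻¹ * g)⁻¹ = h⁻¹ * (g * x * g⁻¹) * h := by group
  rw [e2, hg, ← hh]
  group

end Cfsg.Agent.Lib.Transfer
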