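import Cfsg.Agent.Lib.Transfer.Frat
import Cfsg.Agent.Lib.Transfer.MaxClass
import Mathlib

/-! Extraspecial groups: normal forms through symplectic pairs, and the isomorphism through a
graph in the direct product. -/

set_option autoImplicit false

namespace Cfsg.Agent.Lib.Transfer

open Subgroup
open scoped commutatorElement

section Ambient

variable {E : Type*} [Group E] {p : ℕ}

/-- The ambient data: `z` central of order `p`, all commutators are powers of `z`. -/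
structure Amb (p : ℕ) (z : E) : Prop where
  cen : z ∈ center E
  ord : orderOf z = p
  comm : ∀ a b : E, ⁅a, b⁆ ∈ zpowers z

theorem Amb.z_comm {z : E} (hz : Amb p z) (c : E) : c * z = z * c := mem_center_iff.mp hz.cen c

theorem Amb.comm_central {z : E} (hz : Amb p z) (a b c : E) : c * ⁅a, b⁆ = ⁅a, b⁆ * c := by
  obtain ⟨k, hk⟩ := mem_zpowers_iff.mp (hz.comm a b)
  rw [← hk]
  have : Commute c z := hz.z_comm c
  exact (this.zpow_right k).eq

/-- The commutator homomorphism `a ↦ ⁅w, a⁆`. -/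
def commHom {z : E} (hz : Amb p z) (A : Subgroup E) (w : E) : A →* zpowers z :=
  MonoidHom.mk' (fun a => ⟨⁅w, (a : E)⁆, hz.comm _ _⟩) (by
    intro a b
    apply Subtype.ext
    show ⁅w, (a : E) * b⁆ = ⁅w, (a : E)⁆ * ⁅w, (b : E)⁆
    have e : ⁅w, (a : E) * b⁆ = ⁅w, (a : E)⁆ * ((a : E) * ⁅w, (b : E)⁆ * (a : E)⁻¹) := by
      simp only [commutatorElement_def]; group
    rw [e, hz.comm_central, mul_inv_cancel_right])

variable [Finite E] [hp : Fact p.Prime]

theorem commHom_range {z : E} (hz : Amb p z) (A : Subgroup E) (w : E) {a : E} (ha : a ∈ A)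
    (haw : w * a ≠ a * w) : (commHom hz A w).range = ⊤ := by
  haveI : Fact (Nat.card (zpowers z)).Prime := ⟨by rw [Nat.card_zpowers, hz.ord]; exact hp.out⟩
  rcases (commHom hz A w).range.eq_bot_or_eq_top_of_prime_card with h | h
  · exfalso
    have h1 : commHom hz A w ⟨a, ha⟩ ∈ (commHom hz A w).range := ⟨_, rfl⟩
    rw [h, Subgroup.mem_bot] at h1
    have h2 : ⁅w, a⁆ = 1 := congrArg Subtype.val h1
    exact haw (commutatorElement_eq_one_iff_mul_comm.mp h2)
  · exact h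

theorem exists_comm_eq {z : E} (hz : Amb p z) (A : Subgroup E) (w : E) {a : E} (ha : a ∈ A)
    (haw : w * a ≠ a * w) : ∃ y ∈ A, ⁅w, y⁆ = z := by
  have h : (⟨z, mem_zpowers z⟩ : zpowers z) ∈ (commHom hz A w).range := by
    rw [commHom_range hz A w ha haw]; trivial
  obtain ⟨y, hy⟩ := h
  exact ⟨y, y.2, congrArg Subtype.val hy⟩

theorem card_eq_prime_mul {z : E} (hz : Amb p z) (A : Subgroup E) (w : E) {a : E} (ha : a ∈ A)
    (haw : w * a ≠ a * w) : Nat.card A = p * Nat.card (A ⊓ centralizer ({w} : Set E) : Subgroup E) := by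
  have h1 := (commHom hz A w).ker.card_mul_index
  rw [Subgroup.index_ker, commHom_range hz A w ha haw, Subgroup.card_top, Nat.card_zpowers, hz.ord]
    at h1
  have h2 : (commHom hz A w).ker.map A.subtype = A ⊓ centralizer ({w} : Set E) := by
    ext t
    constructor
    · rintro ⟨a', ha', rfl⟩
      refine ⟨a'.2, ?_⟩
      show (a' : E) ∈ centralizer ({w} : Set E)
      rw [Subgroup.mem_centralizer_singleton_iff]
      have h3 : ⁅w, (a' : E)⁆ = 1 := congrArg Subtype.val (MonoidHom.mem_ker.mp ha')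
      exact (commutatorElement_eq_one_iff_mul_comm.mp h3).symm
    · rintro ⟨ht, htc⟩
      refine ⟨⟨t, ht⟩, ?_, rfl⟩
      change commHom hz A w ⟨t, ht⟩ = 1
      apply Subtype.ext
      have htc' : t ∈ centralizer ({w} : Set E) := htc
      rw [Subgroup.mem_centralizer_singleton_iff] at htc'
      exact commutatorElement_eq_one_iff_mul_comm.mpr htc'.symm
  have h3 : Nat.card (commHom hz A w).ker = Nat.card (A ⊓ centralizer ({w} : Set E) : Subgroup E) := by
    rw [← h2, Subgroup.card_map_of_injective A.subtype_injective]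
  rw [← h1, h3, mul_comm]

/-- Non-degeneracy of `D`: `z ∈ D` and `Z(D) ≤ ⟨z⟩`. -/
def NonDeg (z : E) (D : Subgroup E) : Prop :=
  z ∈ D ∧ ∀ d ∈ D, (∀ e ∈ D, d * e = e * d) → d ∈ zpowers z

theorem centralizer_pair_eq (x y : E) :
    centralizer ({x, y} : Set E) = centralizer ({x} : Set E) ⊓ centralizer ({y} : Set E) := by
  ext t
  simp only [Subgroup.mem_inf, Subgroup.mem_centralizer_singleton_iff, Subgroup.mem_centralizer_iff,
    Set.mem_insert_iff, Set.mem_singleton_iff, forall_eq_or_imp, forall_eq]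

theorem peel {z : E} (hz : Amb p z) {D : Subgroup E} (hD : NonDeg z D) {x y : E} (hx : x ∈ D)
    (hy : y ∈ D) (hxy : ⁅x, y⁆ = z) :
    NonDeg z (D ⊓ centralizer ({x, y} : Set E)) ∧
      Nat.card D = p ^ 2 * Nat.card (D ⊓ centralizer ({x, y} : Set E) : Subgroup E) ∧
      D = closure ({x, y} : Set E) ⊔ (D ⊓ centralizer ({x, y} : Set E)) := by
  have hp1 : p.Prime := hp.out
  set C : Subgroup E := D ⊓ centralizer ({x, y} : Set E) with hC
  have hz1 : z ≠ 1 := by
    rintro rfl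
    have := hz.ord
    rw [orderOf_one] at this
    exact hp1.one_lt.ne this
  have hne1 : x * y ≠ y * x := by
    intro h
    apply hz1
    rw [← hxy]
    exact commutatorElement_eq_one_iff_mul_comm.mpr h
  have hC2 : ∀ A : Subgroup E, x ∈ A → y ∈ A →
      Nat.card A = p ^ 2 * Nat.card (A ⊓ centralizer ({x, y} : Set E) : Subgroup E) := by
    intro A hxA hyA
    have h1 := card_eq_prime_mul hz A x hyA hne1
    have h2 := card_eq_prime_mul hz (A ⊓ centralizer ({x} : Set E)) y (a := x)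
      ⟨hxA, by show x ∈ centralizer ({x} : Set E); rw [Subgroup.mem_centralizer_singleton_iff]⟩ (Ne.symm hne1)
    rw [h1, h2, centralizer_pair_eq, inf_assoc, pow_two, mul_assoc]
  have hDcard := hC2 D hx hy
  set A : Subgroup E := closure ({x, y} : Set E) ⊔ C with hA
  have hAD : A ≤ D := sup_le ((closure_le _).mpr (by
    rintro t (rfl | rfl)
    · exact hx
    · exact hy)) inf_le_left
  have hCA : C ≤ A := le_sup_right
  have hxA : x ∈ A := Subgroup.mem_sup_left (subset_closure (by simp))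
  have hyA : y ∈ A := Subgroup.mem_sup_left (subset_closure (by simp))
  have hAcard := hC2 A hxA hyA
  have hCle : C ≤ A ⊓ centralizer ({x, y} : Set E) := le_inf hCA inf_le_right
  have hle1 : Nat.card C ≤ Nat.card (A ⊓ centralizer ({x, y} : Set E) : Subgroup E) :=
    Subgroup.card_le_of_le hCle
  have hAeq : A = D := by
    apply Subgroup.eq_of_le_of_card_ge hAD
    rw [hDcard, hAcard]
    exact Nat.mul_le_mul_left _ hle1
  refine ⟨⟨⟨hD.1, ?_⟩, ?_⟩, hDcard, hAeq.symm⟩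
  · show z ∈ centralizer ({x, y} : Set E)
    rw [Subgroup.mem_centralizer_iff]
    intro h _
    exact hz.z_comm h
  · intro w hw hwc
    apply hD.2 w hw.1
    have hwD : D ≤ centralizer ({w} : Set E) := by
      rw [← hAeq]
      apply sup_le
      · rw [closure_le]
        rintro t (rfl | rfl)
        · rw [SetLike.mem_coe, Subgroup.mem_centralizer_singleton_iff]
          exact ((Subgroup.mem_centralizer_iff.mp hw.2) _ (by simp))
        · rw [SetLike.mem_coe, Subgroup.mem_centralizer_singleton_iff]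
          exact ((Subgroup.mem_centralizer_iff.mp hw.2) _ (by simp))
      · intro t ht
        rw [Subgroup.mem_centralizer_singleton_iff]
        exact (hwc t ht).symm
    intro e he
    have := hwD he
    rw [Subgroup.mem_centralizer_singleton_iff] at this
    exact this.symm

theorem exists_pair {z : E} (hz : Amb p z) {D : Subgroup E} (hD : NonDeg z D)
    (hne : D ≠ zpowers z) : ∃ x ∈ D, ∃ y ∈ D, ⁅x, y⁆ = z := by
  have hle : zpowers z ≤ D := zpowers_le.mpr hD.1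
  have hlt : zpowers z < D := lt_of_le_of_ne hle (Ne.symm hne)
  obtain ⟨x, hx, hxz⟩ := SetLike.exists_of_lt hlt
  have hex : ∃ e ∈ D, x * e ≠ e * x := by
    by_contra hno
    push Not at hno
    exact hxz (hD.2 x hx hno)
  obtain ⟨e, he, hxe⟩ := hex
  obtain ⟨y, hy, hxy⟩ := exists_comm_eq hz D x he hxe
  exact ⟨x, hx, y, hy, hxy⟩

/-- The symplectic system of `D`, with square type recorded by the list. -/
def Sys (p : ℕ) (z : E) : List ℕ → Subgroup E → Prop
  | [], D => D = zpowers z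
  | e :: l, D => ∃ x ∈ D, ∃ y ∈ D, ⁅x, y⁆ = z ∧ x ^ p = z ^ e ∧ y ^ p = z ^ e ∧
      Sys p z l (D ⊓ centralizer ({x, y} : Set E)) ∧
      D = closure ({x, y} : Set E) ⊔ (D ⊓ centralizer ({x, y} : Set E))

/-- The exponent `p` case. -/
theorem exists_sys_exp {z : E} (hz : Amb p z) (hexp : ∀ a : E, a ^ p = 1) :
    ∀ (n : ℕ) (D : Subgroup E), Nat.card D = n → NonDeg z D →
      ∃ k : ℕ, Sys p z (List.replicate k 0) D ∧ Nat.card D = p ^ (2 * k + 1) := by
  have hp1 : p.Prime := hp.out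
  intro n
  induction n using Nat.strong_induction_on with
  | _ n ih =>
    intro D hDn hD
    by_cases hDz : D = zpowers z
    · refine ⟨0, hDz, ?_⟩
      rw [hDz, Nat.card_zpowers, hz.ord]
      simp
    obtain ⟨x, hx, y, hy, hxy⟩ := exists_pair hz hD hDz
    obtain ⟨hN, hcard, hsup⟩ := peel hz hD hx hy hxy
    have hCpos : 0 < Nat.card (D ⊓ centralizer ({x, y} : Set E) : Subgroup E) := Nat.card_pos
    have hlt : Nat.card (D ⊓ centralizer ({x, y} : Set E) : Subgroup E) < n := by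
      rw [← hDn, hcard]
      have : 1 < p ^ 2 := Nat.one_lt_pow (by norm_num) hp1.one_lt
      nlinarith
    obtain ⟨k, hk1, hk2⟩ := ih _ hlt _ rfl hN
    refine ⟨k + 1, ?_, ?_⟩
    · exact ⟨x, hx, y, hy, hxy, by rw [hexp, pow_zero], by rw [hexp, pow_zero], hk1, hsup⟩
    · rw [hcard, hk2]
      ring

end Ambient

section Graph

variable {G : Type*} [Group G] [Finite G]

theorem card_sup_zpowers_le (A : Subgroup G) (u : G) (p : ℕ) (hp : 0 < p)
    (hu : ∀ a ∈ A, u * a * u⁻¹ ∈ A) (hup : u ^ p ∈ A) :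
    Nat.card (A ⊔ zpowers u : Subgroup G) ≤ p * Nat.card A := by
  classical
  have hn : u ∈ normalizer (A : Set G) := mem_normalizer_of_forall_conj hu
  have hnz : ∀ k : ℤ, ∀ a ∈ A, u ^ k * a * (u ^ k)⁻¹ ∈ A := by
    intro k a ha
    have h1 : u ^ k ∈ normalizer (A : Set G) := Subgroup.zpow_mem _ hn k
    exact (mem_normalizer_iff.mp h1 a).mp ha
  -- every element of the join has the form `a * u ^ k`
  let T : Subgroup G :=
    { carrier := {g | ∃ a ∈ A, ∃ k : ℤ, g = a * u ^ k}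
      one_mem' := ⟨1, A.one_mem, 0, by simp⟩
      mul_mem' := by
        rintro _ _ ⟨a, ha, k, rfl⟩ ⟨b, hb, l, rfl⟩
        refine ⟨a * (u ^ k * b * (u ^ k)⁻¹), A.mul_mem ha (hnz k b hb), k + l, ?_⟩
        rw [zpow_add]; group
      inv_mem' := by
        rintro _ ⟨a, ha, k, rfl⟩
        refine ⟨u ^ (-k) * a⁻¹ * (u ^ (-k))⁻¹, hnz (-k) _ (A.inv_mem ha), -k, ?_⟩
        group }
  have hle : A ⊔ zpowers u ≤ T := by
    apply sup_le
    · intro a ha
      exact ⟨a, ha, 0, by simp⟩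
    · rw [zpowers_le]
      exact ⟨1, A.one_mem, 1, by simp⟩
  let f : Fin p × A → G := fun x => (x.2 : G) * u ^ (x.1 : ℕ)
  have hsub : ((A ⊔ zpowers u : Subgroup G) : Set G) ⊆ Set.range f := by
    intro g hg
    obtain ⟨a, ha, k, rfl⟩ := hle hg
    -- reduce `k` modulo `p`
    have hkp : k = p * (k / p) + (k % p) := (Int.mul_ediv_add_emod k p).symm
    have hr0 : 0 ≤ k % p := Int.emod_nonneg _ (by exact_mod_cast hp.ne')
    have hrlt : k % p < p := Int.emod_lt_of_pos _ (by exact_mod_cast hp)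
    obtain ⟨r, hr⟩ : ∃ r : ℕ, k % p = r := ⟨(k % p).toNat, by omega⟩
    have hrp : r < p := by omega
    have h1 : u ^ k = (u ^ p) ^ (k / p) * u ^ r := by
      conv_lhs => rw [hkp, hr]
      rw [zpow_add, zpow_mul, zpow_natCast, zpow_natCast]
    have h2 : (u ^ p) ^ (k / p) ∈ A := A.zpow_mem hup _
    refine ⟨(⟨r, hrp⟩, ⟨a * (u ^ p) ^ (k / p), A.mul_mem ha h2⟩), ?_⟩
    simp only [f]
    rw [h1]; group
  have h3 : ((A ⊔ zpowers u : Subgroup G) : Set G).ncard ≤ (Set.range f).ncard :=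
    Set.ncard_le_ncard hsub (Set.toFinite _)
  have h4 : (Set.range f).ncard ≤ Nat.card (Fin p × A) := by
    rw [← Set.image_univ]
    calc (f '' Set.univ).ncard ≤ (Set.univ : Set (Fin p × A)).ncard := Set.ncard_image_le (Set.toFinite _)
      _ = _ := Set.ncard_univ _
  have h5 : Nat.card (Fin p × A) = p * Nat.card A := by
    rw [Nat.card_prod]; simp
  rw [← SetLike.coe_sort_coe, Nat.card_coe_set_eq]
  omega

theorem map_gen {P F : Type*} [Group P] [Group F] (φ : P →* F) (Γ' : Subgroup P) (X Y : P)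
    (C D : Subgroup F) (x y : F) (h1 : Γ'.map φ = C) (h2 : φ X = x) (h3 : φ Y = y)
    (h4 : D = closure ({x, y} : Set F) ⊔ C) : ((Γ' ⊔ zpowers X) ⊔ zpowers Y).map φ = D := by
  rw [Subgroup.map_sup, Subgroup.map_sup, h1, MonoidHom.map_zpowers, MonoidHom.map_zpowers,
    h2, h3, h4]
  apply le_antisymm
  · refine sup_le (sup_le le_sup_right ?_) ?_
    · rw [zpowers_le]
      exact Subgroup.mem_sup_left (subset_closure (by simp))
    · rw [zpowers_le]
      exact Subgroup.mem_sup_left (subset_closure (by simp))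
  · apply sup_le
    · rw [closure_le]
      rintro t (rfl | rfl)
      · exact Subgroup.mem_sup_left (Subgroup.mem_sup_right (mem_zpowers _))
      · exact Subgroup.mem_sup_right (mem_zpowers _)
    · exact le_sup_left.trans le_sup_left

end Graph

section Iso

variable {E₁ E₂ : Type*} [Group E₁] [Group E₂] [Finite E₁] [Finite E₂] {p : ℕ} [hp : Fact p.Prime]

theorem exists_graph {z₁ : E₁} {z₂ : E₂} (hz₁ : Amb p z₁) (hz₂ : Amb p z₂) :
    ∀ (l : List ℕ) (D₁ : Subgroup E₁) (D₂ : Subgroup E₂), Sys p z₁ l D₁ → Sys p z₂ l D₂ →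
      ∃ Γ : Subgroup (E₁ × E₂), ((z₁, z₂) : E₁ × E₂) ∈ Γ ∧ Γ ≤ D₁.prod D₂ ∧
        Γ.map (MonoidHom.fst E₁ E₂) = D₁ ∧ Γ.map (MonoidHom.snd E₁ E₂) = D₂ ∧
        Nat.card Γ ≤ p ^ (2 * l.length + 1) := by
  have hp1 : p.Prime := hp.out
  intro l
  induction l with
  | nil =>
    intro D₁ D₂ h₁ h₂
    have h₁' : D₁ = zpowers z₁ := h₁
    have h₂' : D₂ = zpowers z₂ := h₂
    refine ⟨zpowers (z₁, z₂), mem_zpowers _, ?_, ?_, ?_, ?_⟩
    · rw [zpowers_le]
      exact ⟨by rw [h₁']; exact mem_zpowers _, by rw [h₂']; exact mem_zpowers _⟩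
    · rw [MonoidHom.map_zpowers, h₁']; rfl
    · rw [MonoidHom.map_zpowers, h₂']; rfl
    · rw [Nat.card_zpowers]
      simp only [List.length_nil, mul_zero, zero_add, pow_one]
      apply orderOf_le_of_pow_eq_one hp1.pos
      apply Prod.ext
      · show z₁ ^ p = 1
        rw [← hz₁.ord, pow_orderOf_eq_one]
      · show z₂ ^ p = 1
        rw [← hz₂.ord, pow_orderOf_eq_one]
  | cons e l ih =>
    intro D₁ D₂ h₁ h₂
    obtain ⟨x₁, hx₁, y₁, hy₁, hc₁, hxp₁, hyp₁, hS₁, hD₁⟩ := h₁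
    obtain ⟨x₂, hx₂, y₂, hy₂, hc₂, hxp₂, hyp₂, hS₂, hD₂⟩ := h₂
    set C₁ : Subgroup E₁ := D₁ ⊓ centralizer ({x₁, y₁} : Set E₁) with hC₁
    set C₂ : Subgroup E₂ := D₂ ⊓ centralizer ({x₂, y₂} : Set E₂) with hC₂
    obtain ⟨Γ', hz', hle', hf', hs', hcard'⟩ := ih C₁ C₂ hS₁ hS₂
    let X : E₁ × E₂ := (x₁, x₂)
    let Y : E₁ × E₂ := (y₁, y₂)
    let Z : E₁ × E₂ := (z₁, z₂)
    have hXY : ⁅X, Y⁆ = Z := Prod.ext hc₁ hc₂
    have hXp : X ^ p = Z ^ e := Prod.ext hxp₁ hxp₂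
    have hYp : Y ^ p = Z ^ e := Prod.ext hyp₁ hyp₂
    have hcomX : ∀ γ ∈ Γ', X * γ = γ * X := by
      intro γ hγ
      have h1 := (hle' hγ).1.2
      have h2 := (hle' hγ).2.2
      have h1' : γ.1 ∈ centralizer ({x₁, y₁} : Set E₁) := h1
      have h2' : γ.2 ∈ centralizer ({x₂, y₂} : Set E₂) := h2
      rw [Subgroup.mem_centralizer_iff] at h1' h2'
      exact Prod.ext (h1' x₁ (by simp)) (h2' x₂ (by simp))
    have hcomY : ∀ γ ∈ Γ', Y * γ = γ * Y := by
      intro γ hγ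
      have h1 := (hle' hγ).1.2
      have h2 := (hle' hγ).2.2
      have h1' : γ.1 ∈ centralizer ({x₁, y₁} : Set E₁) := h1
      have h2' : γ.2 ∈ centralizer ({x₂, y₂} : Set E₂) := h2
      rw [Subgroup.mem_centralizer_iff] at h1' h2'
      exact Prod.ext (h1' y₁ (by simp)) (h2' y₂ (by simp))
    set Γ₁ : Subgroup (E₁ × E₂) := Γ' ⊔ zpowers X with hΓ₁
    set Γ : Subgroup (E₁ × E₂) := Γ₁ ⊔ zpowers Y with hΓ
    have hΓ'Γ₁ : Γ' ≤ Γ₁ := le_sup_left
    have hXΓ₁ : X ∈ Γ₁ := Subgroup.mem_sup_right (mem_zpowers X)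
    have hΓ₁Γ : Γ₁ ≤ Γ := le_sup_left
    have hYΓ : Y ∈ Γ := Subgroup.mem_sup_right (mem_zpowers Y)
    have hcard1 : Nat.card Γ₁ ≤ p * Nat.card Γ' := by
      apply card_sup_zpowers_le Γ' X p hp1.pos
      · intro a ha
        rw [hcomX a ha, mul_inv_cancel_right]
        exact ha
      · rw [hXp]
        exact Γ'.pow_mem hz' e
    have hYn : ∀ a ∈ Γ₁, Y * a * Y⁻¹ ∈ Γ₁ := by
      have hle : Γ₁ ≤ Γ₁.comap (MulAut.conj Y).toMonoidHom := by
        apply sup_le
        · intro a ha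
          show Y * a * Y⁻¹ ∈ Γ₁
          rw [hcomY a ha, mul_inv_cancel_right]
          exact hΓ'Γ₁ ha
        · rw [zpowers_le]
          show Y * X * Y⁻¹ ∈ Γ₁
          have e1 : Y * X * Y⁻¹ = ⁅X, Y⁆⁻¹ * X := by
            simp only [commutatorElement_def]; group
          rw [e1, hXY]
          exact Γ₁.mul_mem (Γ₁.inv_mem (hΓ'Γ₁ hz')) hXΓ₁
      intro a ha
      exact hle ha
    have hcard2 : Nat.card Γ ≤ p * Nat.card Γ₁ := by
      apply card_sup_zpowers_le Γ₁ Y p hp1.pos hYn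
      rw [hYp]
      exact Γ₁.pow_mem (hΓ'Γ₁ hz') e
    refine ⟨Γ, hΓ₁Γ (hΓ'Γ₁ hz'), ?_, ?_, ?_, ?_⟩
    · refine sup_le (sup_le ?_ ?_) ?_
      · exact hle'.trans (Subgroup.prod_mono inf_le_left inf_le_left)
      · rw [zpowers_le]
        exact ⟨hx₁, hx₂⟩
      · rw [zpowers_le]
        exact ⟨hy₁, hy₂⟩
    · exact map_gen (MonoidHom.fst E₁ E₂) Γ' X Y C₁ D₁ x₁ y₁ hf' rfl rfl hD₁
    · exact map_gen (MonoidHom.snd E₁ E₂) Γ' X Y C₂ D₂ x₂ y₂ hs' rfl rfl hD₂
    · have : Nat.card Γ ≤ p * (p * p ^ (2 * l.length + 1)) :=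
        hcard2.trans (Nat.mul_le_mul_left _ (hcard1.trans (Nat.mul_le_mul_left _ hcard')))
      refine this.trans (le_of_eq ?_)
      simp only [List.length_cons]
      ring

theorem iso_of_sys {z₁ : E₁} {z₂ : E₂} (hz₁ : Amb p z₁) (hz₂ : Amb p z₂) (l : List ℕ)
    (h₁ : Sys p z₁ l (⊤ : Subgroup E₁)) (h₂ : Sys p z₂ l (⊤ : Subgroup E₂))
    (c₁ : Nat.card E₁ = p ^ (2 * l.length + 1)) (c₂ : Nat.card E₂ = p ^ (2 * l.length + 1)) :
    Nonempty (E₁ ≃* E₂) := by
  obtain ⟨Γ, -, -, hf, hs, hc⟩ := exists_graph hz₁ hz₂ l ⊤ ⊤ h₁ h₂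
  let f : Γ →* E₁ := (MonoidHom.fst E₁ E₂).comp Γ.subtype
  let g : Γ →* E₂ := (MonoidHom.snd E₁ E₂).comp Γ.subtype
  have hfs : Function.Surjective f := by
    intro t
    have : t ∈ Γ.map (MonoidHom.fst E₁ E₂) := by rw [hf]; trivial
    obtain ⟨γ, hγ, rfl⟩ := this
    exact ⟨⟨γ, hγ⟩, rfl⟩
  have hgs : Function.Surjective g := by
    intro t
    have : t ∈ Γ.map (MonoidHom.snd E₁ E₂) := by rw [hs]; trivial
    obtain ⟨γ, hγ, rfl⟩ := this
    exact ⟨⟨γ, hγ⟩, rfl⟩
  have hcf : Nat.card Γ = Nat.card E₁ :=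
    le_antisymm (by rw [c₁]; exact hc) (Nat.card_le_card_of_surjective f hfs)
  have hcg : Nat.card Γ = Nat.card E₂ :=
    le_antisymm (by rw [c₂]; exact hc) (Nat.card_le_card_of_surjective g hgs)
  have hfb := (Nat.bijective_iff_surjective_and_card f).mpr ⟨hfs, hcf⟩
  have hgb := (Nat.bijective_iff_surjective_and_card g).mpr ⟨hgs, hcg⟩
  exact ⟨(MulEquiv.ofBijective f hfb).symm.trans (MulEquiv.ofBijective g hgb)⟩

end Iso

section Two

variable {E : Type*} [Group E] [Finite E]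

theorem Amb.zz {z : E} (hz : Amb 2 z) : z * z = 1 := by
  rw [← pow_two, ← hz.ord, pow_orderOf_eq_one]

theorem Amb.mem_zpowers_two {z : E} (hz : Amb 2 z) {t : E} (ht : t ∈ zpowers z) : t = 1 ∨ t = z := by
  obtain ⟨k, rfl⟩ := mem_zpowers_iff.mp ht
  have hz2 : z ^ (2 : ℤ) = 1 := by
    rw [zpow_ofNat, pow_two, hz.zz]
  rcases Int.even_or_odd' k with ⟨m, rfl | rfl⟩
  · left
    rw [zpow_mul, hz2, one_zpow]
  · right
    rw [zpow_add, zpow_mul, hz2, one_zpow, one_mul, zpow_one]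

theorem pair_norm {z : E} (hz : Amb 2 z) (hsq : ∀ a : E, a ^ 2 ∈ zpowers z) {D : Subgroup E} {x y : E}
    (hx : x ∈ D) (hy : y ∈ D) (hxy : ⁅x, y⁆ = z) :
    ∃ x' ∈ D, ∃ y' ∈ D, ⁅x', y'⁆ = z ∧ ∃ e : ℕ, (e = 0 ∨ e = 1) ∧ x' ^ 2 = z ^ e ∧ y' ^ 2 = z ^ e := by
  have hzz := hz.zz
  have hrel : x * y = z * (y * x) := by
    rw [← hxy]
    simp only [commutatorElement_def]; group
  rcases hz.mem_zpowers_two (hsq x) with hxs | hxs <;> rcases hz.mem_zpowers_two (hsq y) with hys | hys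
  · exact ⟨x, hx, y, hy, hxy, 0, Or.inl rfl, by simpa using hxs, by simpa using hys⟩
  · -- `x² = 1`, `y² = z`
    have hxx : x * x = 1 := by rw [← pow_two]; exact hxs
    have hyy : y * y = z := by rw [← pow_two]; exact hys
    refine ⟨x, hx, x * y, D.mul_mem hx hy, ?_, 0, Or.inl rfl, by simpa using hxs, ?_⟩
    · have e : ⁅x, x * y⁆ = x * ⁅x, y⁆ * x⁻¹ := by
        simp only [commutatorElement_def]; group
      rw [e, hxy, hz.z_comm, mul_inv_cancel_right]
    · rw [pow_zero, pow_two]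
      calc x * y * (x * y) = (x * y) * x * y := by group
        _ = (z * (y * x)) * x * y := by rw [hrel]
        _ = z * y * (x * x) * y := by group
        _ = z * (y * y) := by rw [hxx]; group
        _ = 1 := by rw [hyy, hzz]
  · -- `x² = z`, `y² = 1`
    have hxx : x * x = z := by rw [← pow_two]; exact hxs
    have hyy : y * y = 1 := by rw [← pow_two]; exact hys
    refine ⟨y, hy, y * x, D.mul_mem hy hx, ?_, 0, Or.inl rfl, by simpa using hys, ?_⟩
    · have e : ⁅y, y * x⁆ = y * ⁅x, y⁆⁻¹ * y⁻¹ := by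
        simp only [commutatorElement_def]; group
      have hzi : z⁻¹ = z := inv_eq_of_mul_eq_one_left hzz
      rw [e, hxy, hzi, hz.z_comm, mul_inv_cancel_right]
    · rw [pow_zero, pow_two]
      calc y * x * (y * x) = y * (x * y) * x := by group
        _ = y * (z * (y * x)) * x := by rw [hrel]
        _ = (y * z) * y * (x * x) := by group
        _ = (z * y) * y * (x * x) := by rw [hz.z_comm]
        _ = z * (y * y) * (x * x) := by group
        _ = 1 := by rw [hyy, hxx, mul_one, hzz]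
  · exact ⟨x, hx, y, hy, hxy, 1, Or.inr rfl, by simpa using hxs, by simpa using hys⟩

theorem exists_dpair {z : E} (hz : Amb 2 z) {D : Subgroup E} {x y x' : E} (hx : x ∈ D)
    (hy : y ∈ D) (hxy : ⁅x, y⁆ = z) (hxs : x ^ 2 = z) (hys : y ^ 2 = z)
    (hx' : x' ∈ D ⊓ centralizer ({x, y} : Set E)) (hx's : x' ^ 2 = z) :
    ∃ a ∈ D, ∃ b ∈ D, ⁅a, b⁆ = z ∧ a ^ 2 = 1 ∧ b ^ 2 = 1 := by
  have hzz := hz.zz
  have hx'c : x' ∈ centralizer ({x, y} : Set E) := hx'.2
  rw [Subgroup.mem_centralizer_iff] at hx'c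
  have hc1 : x * x' = x' * x := hx'c x (by simp)
  have hc2 : y * x' = x' * y := hx'c y (by simp)
  have hxx : x * x = z := by rw [← pow_two]; exact hxs
  have hyy : y * y = z := by rw [← pow_two]; exact hys
  have hxx' : x' * x' = z := by rw [← pow_two]; exact hx's
  obtain ⟨a, ha⟩ : ∃ a, a = x * x' := ⟨_, rfl⟩
  have haD : a ∈ D := by rw [ha]; exact D.mul_mem hx hx'.1
  have haa : a * a = 1 := by
    calc a * a = x * (x' * x) * x' := by rw [ha]; group
      _ = x * (x * x') * x' := by rw [hc1]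
      _ = (x * x) * (x' * x') := by group
      _ = 1 := by rw [hxx, hxx', hzz]
  have hay : ⁅a, y⁆ = z := by
    rw [← hxy]
    simp only [commutatorElement_def]
    calc a * y * a⁻¹ * y⁻¹ = x * (x' * y) * x'⁻¹ * x⁻¹ * y⁻¹ := by rw [ha]; group
      _ = x * (y * x') * x'⁻¹ * x⁻¹ * y⁻¹ := by rw [hc2]
      _ = _ := by group
  have hrel : a * y = z * (y * a) := by
    rw [← hay]
    simp only [commutatorElement_def]; group
  refine ⟨a, haD, a * y, D.mul_mem haD hy, ?_, by rw [pow_two]; exact haa, ?_⟩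
  · have e : ⁅a, a * y⁆ = a * ⁅a, y⁆ * a⁻¹ := by
      simp only [commutatorElement_def]; group
    rw [e, hay, hz.z_comm, mul_inv_cancel_right]
  · rw [pow_two]
    calc a * y * (a * y) = (a * y) * a * y := by group
      _ = (z * (y * a)) * a * y := by rw [hrel]
      _ = z * y * (a * a) * y := by group
      _ = z * (y * y) := by rw [haa]; group
      _ = 1 := by rw [hyy, hzz]

theorem exists_sys_two {z : E} (hz : Amb 2 z) (hsq : ∀ a : E, a ^ 2 ∈ zpowers z) :
    ∀ (k : ℕ) (D : Subgroup E), Nat.card D = 2 ^ (2 * k + 3) → NonDeg z D →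
      ∃ ε : ℕ, (ε = 0 ∨ ε = 1) ∧ Sys 2 z (List.replicate k 0 ++ [ε]) D := by
  have hcz : Nat.card (zpowers z) = 2 := by rw [Nat.card_zpowers, hz.ord]
  intro k
  induction k with
  | zero =>
    intro D hcard hD
    have hne : D ≠ zpowers z := by
      intro h
      rw [h, hcz] at hcard
      norm_num at hcard
    obtain ⟨x₀, hx₀, y₀, hy₀, hxy₀⟩ := exists_pair hz hD hne
    obtain ⟨x, hx, y, hy, hxy, e, he, hxs, hys⟩ := pair_norm hz hsq hx₀ hy₀ hxy₀
    obtain ⟨hN, hc, hsup⟩ := peel hz hD hx hy hxy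
    refine ⟨e, he, x, hx, y, hy, hxy, hxs, hys, ?_, hsup⟩
    show _ = zpowers z
    symm
    apply Subgroup.eq_of_le_of_card_ge (zpowers_le.mpr hN.1)
    rw [hcz]
    rw [hcard] at hc
    omega
  | succ k ih =>
    intro D hcard hD
    have hne : D ≠ zpowers z := by
      intro h
      rw [h, hcz] at hcard
      have h2 : 2 ^ (2 * (k + 1) + 3) = 2 * 2 ^ (2 * k + 4) := by ring
      have h3 : 0 < 2 ^ (2 * k + 4) := by positivity
      have h4 : 2 ^ (2 * k + 4) = 2 * 2 ^ (2 * k + 3) := by ring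
      have h5 : 0 < 2 ^ (2 * k + 3) := by positivity
      omega
    obtain ⟨x₀, hx₀, y₀, hy₀, hxy₀⟩ := exists_pair hz hD hne
    obtain ⟨x, hx, y, hy, hxy, e, he, hxs, hys⟩ := pair_norm hz hsq hx₀ hy₀ hxy₀
    -- a pair of involutions
    have hpair : ∃ a ∈ D, ∃ b ∈ D, ⁅a, b⁆ = z ∧ a ^ 2 = 1 ∧ b ^ 2 = 1 := by
      rcases he with rfl | rfl
      · exact ⟨x, hx, y, hy, hxy, by simpa using hxs, by simpa using hys⟩
      · simp only [pow_one] at hxs hys
        obtain ⟨hN, hc, -⟩ := peel hz hD hx hy hxy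
        have hcC : Nat.card (D ⊓ centralizer ({x, y} : Set E) : Subgroup E) = 2 ^ (2 * k + 3) := by
          rw [hcard] at hc
          have e1 : 2 ^ (2 * (k + 1) + 3) = 2 ^ 2 * 2 ^ (2 * k + 3) := by ring
          rw [e1] at hc
          exact (Nat.eq_of_mul_eq_mul_left (by norm_num) hc).symm
        have hneC : (D ⊓ centralizer ({x, y} : Set E) : Subgroup E) ≠ zpowers z := by
          intro h
          rw [h, hcz] at hcC
          have h4 : 2 ^ (2 * k + 3) = 2 * 2 ^ (2 * k + 2) := by ring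
          have h5 : 2 ^ (2 * k + 2) = 2 * 2 ^ (2 * k + 1) := by ring
          have h6 : 0 < 2 ^ (2 * k + 1) := by positivity
          omega
        obtain ⟨u₀, hu₀, v₀, hv₀, huv₀⟩ := exists_pair hz hN hneC
        obtain ⟨u, hu, v, hv, huv, e', he', hus, hvs⟩ := pair_norm hz hsq hu₀ hv₀ huv₀
        rcases he' with rfl | rfl
        · exact ⟨u, hu.1, v, hv.1, huv, by simpa using hus, by simpa using hvs⟩
        · simp only [pow_one] at hus hvs
          exact exists_dpair hz hx hy hxy hxs hys hu hus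
    obtain ⟨a, ha, b, hb, hab, has, hbs⟩ := hpair
    obtain ⟨hN, hc, hsup⟩ := peel hz hD ha hb hab
    have hcC : Nat.card (D ⊓ centralizer ({a, b} : Set E) : Subgroup E) = 2 ^ (2 * k + 3) := by
      rw [hcard] at hc
      have e1 : 2 ^ (2 * (k + 1) + 3) = 2 ^ 2 * 2 ^ (2 * k + 3) := by ring
      rw [e1] at hc
      exact (Nat.eq_of_mul_eq_mul_left (by norm_num) hc).symm
    obtain ⟨ε, hε, hS⟩ := ih _ hcC hN
    refine ⟨ε, hε, a, ha, b, hb, hab, by simpa using has, by simpa using hbs, hS, hsup⟩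

end Two

section Final

variable {E : Type*} [Group E] [Finite E] {p : ℕ} [hp : Fact p.Prime]

theorem amb_of_extraspecial (h : Cfsg.IsExtraspecial p E) :
    ∃ z : E, Amb p z ∧ NonDeg z (⊤ : Subgroup E) ∧ ∀ a : E, a ^ p ∈ zpowers z := by
  obtain ⟨⟨hP, hF, hC⟩, hcard⟩ := h
  obtain ⟨z₀, hz₀⟩ := exists_prime_orderOf_dvd_card' (G := center E) p (by rw [hcard])
  set z : E := z₀.1 with hz
  have hord : orderOf z = p := by
    rw [hz, Subgroup.orderOf_coe, hz₀]
  have hzeq : zpowers z = center E := by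
    apply Subgroup.eq_of_le_of_card_ge
    · rw [zpowers_le]; exact z₀.2
    · rw [hcard, Nat.card_zpowers, hord]
  refine ⟨z, ⟨z₀.2, hord, fun a b => ?_⟩, ⟨trivial, fun d _ hd => ?_⟩, fun a => ?_⟩
  · rw [hzeq, ← hC]
    exact Subgroup.commutator_mem_commutator trivial trivial
  · rw [hzeq, mem_center_iff]
    intro g
    exact (hd g trivial).symm
  · rw [hzeq, ← hF]
    exact pow_mem_frattini hP a

theorem extraspecial_iso_odd {E₁ E₂ : Type*} [Group E₁] [Group E₂] [Finite E₁] [Finite E₂]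
    (h₁ : Cfsg.IsExtraspecial p E₁) (h₂ : Cfsg.IsExtraspecial p E₂)
    (he₁ : ∀ a : E₁, a ^ p = 1) (he₂ : ∀ a : E₂, a ^ p = 1) (hc : Nat.card E₁ = Nat.card E₂) :
    Nonempty (E₁ ≃* E₂) := by
  have hp1 : p.Prime := hp.out
  obtain ⟨z₁, hz₁, hn₁, -⟩ := amb_of_extraspecial h₁
  obtain ⟨z₂, hz₂, hn₂, -⟩ := amb_of_extraspecial h₂
  obtain ⟨k₁, hS₁, hc₁⟩ := exists_sys_exp hz₁ he₁ _ ⊤ rfl hn₁
  obtain ⟨k₂, hS₂, hc₂⟩ := exists_sys_exp hz₂ he₂ _ ⊤ rfl hn₂
  rw [Subgroup.card_top] at hc₁ hc₂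
  have hk : k₁ = k₂ := by
    have h3 : p ^ (2 * k₁ + 1) = p ^ (2 * k₂ + 1) := by rw [← hc₁, ← hc₂, hc]
    have h4 := Nat.pow_right_injective hp1.two_le h3
    omega
  subst hk
  exact iso_of_sys hz₁ hz₂ (List.replicate k₁ 0) hS₁ hS₂ (by simpa using hc₁) (by simpa using hc₂)

end Final

theorem extraspecial_iso_two {E₁ E₂ E₃ : Type*} [Group E₁] [Group E₂] [Group E₃] [Finite E₁]
    [Finite E₂] [Finite E₃] (h₁ : Cfsg.IsExtraspecial 2 E₁) (h₂ : Cfsg.IsExtraspecial 2 E₂)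
    (h₃ : Cfsg.IsExtraspecial 2 E₃) (c₁ : ∃ n : ℕ, 1 ≤ n ∧ Nat.card E₁ = 2 ^ (2 * n + 1))
    (h12 : Nat.card E₁ = Nat.card E₂) (h23 : Nat.card E₂ = Nat.card E₃) :
    Nonempty (E₁ ≃* E₂) ∨ Nonempty (E₂ ≃* E₃) ∨ Nonempty (E₁ ≃* E₃) := by
  obtain ⟨n, hn, hc⟩ := c₁
  obtain ⟨k, rfl⟩ : ∃ k, n = k + 1 := ⟨n - 1, by omega⟩
  have hc' : Nat.card E₁ = 2 ^ (2 * k + 3) := by rw [hc]; ring_nf
  have hc2 : Nat.card E₂ = 2 ^ (2 * k + 3) := by rw [← h12, hc']
  have hc3 : Nat.card E₃ = 2 ^ (2 * k + 3) := by rw [← h23, hc2]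
  obtain ⟨z₁, hz₁, hn₁, hs₁⟩ := amb_of_extraspecial h₁
  obtain ⟨z₂, hz₂, hn₂, hs₂⟩ := amb_of_extraspecial h₂
  obtain ⟨z₃, hz₃, hn₃, hs₃⟩ := amb_of_extraspecial h₃
  obtain ⟨ε₁, he₁, hS₁⟩ := exists_sys_two hz₁ hs₁ k ⊤ (by rw [Subgroup.card_top]; exact hc') hn₁
  obtain ⟨ε₂, he₂, hS₂⟩ := exists_sys_two hz₂ hs₂ k ⊤ (by rw [Subgroup.card_top]; exact hc2) hn₂
  obtain ⟨ε₃, he₃, hS₃⟩ := exists_sys_two hz₃ hs₃ k ⊤ (by rw [Subgroup.card_top]; exact hc3) hn₃
  have hlen : ∀ ε : ℕ, 2 * (List.replicate k 0 ++ [ε]).length + 1 = 2 * k + 3 := by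
    intro ε
    simp only [List.length_append, List.length_replicate, List.length_cons, List.length_nil]
    ring
  have hε : ε₁ = ε₂ ∨ ε₂ = ε₃ ∨ ε₁ = ε₃ := by omega
  rcases hε with h | h | h
  · subst h
    exact Or.inl (iso_of_sys hz₁ hz₂ _ hS₁ hS₂ (by rw [hlen]; exact hc') (by rw [hlen]; exact hc2))
  · subst h
    exact Or.inr (Or.inl (iso_of_sys hz₂ hz₃ _ hS₂ hS₃ (by rw [hlen]; exact hc2) (by rw [hlen]; exact hc3)))
  · subst h
    exact Or.inr (Or.inr (iso_of_sys hz₁ hz₃ _ hS₁ hS₃ (by rw [hlen]; exact hc') (by rw [hlen]; exact hc3)))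

end Cfsg.Agent.Lib.Transfer
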