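import Cfsg.Prelude.Def_Transfer
import Cfsg.Agent.Lib.Transfer.Conj
import Mathlib

/-! Fusion control by the normalizer of a weakly closed central subgroup (Grün). -/

set_option autoImplicit false

namespace Cfsg.Agent.Lib.Transfer

open scoped commutatorElement

variable {G : Type*} [Group G] [Finite G] {p : ℕ} [Fact p.Prime]

/-- A weakly closed subgroup `Z` of a Sylow subgroup `P`: a conjugate of `Z` lying in a Sylow subgroup containing `Z`
is `Z`. -/
theorem weaklyClosed_conj_of_common_sylow (P : Sylow p G) (Z : Subgroup G) (hW : Cfsg.IsWeaklyClosed Z P)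
    (R : Sylow p G) (hZR : Z ≤ (R : Subgroup G)) (w : G) (hw : ∀ z ∈ Z, w * z * w⁻¹ ∈ (R : Subgroup G)) :
    w ∈ Subgroup.normalizer (Z : Set G) := by
  obtain ⟨a, ha⟩ := sylow_exists_conj P R
  -- a⁻¹ Z a ≤ P
  have h1 : Z.map (MulAut.conj a⁻¹).toMonoidHom ≤ (P : Subgroup G) := by
    rintro _ ⟨z, hz, rfl⟩
    have := (ha z).mp (hZR hz)
    simpa using this
  have h2 := hW.2 a⁻¹ h1
  have h3 : a⁻¹ ∈ Subgroup.normalizer (Z : Set G) := mem_normalizer_of_map_conj_eq h2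
  have h4 : Z.map (MulAut.conj (a⁻¹ * w)).toMonoidHom ≤ (P : Subgroup G) := by
    rintro _ ⟨z, hz, rfl⟩
    have := (ha _).mp (hw z hz)
    simpa [mul_assoc] using this
  have h5 := hW.2 _ h4
  have h6 : a⁻¹ * w ∈ Subgroup.normalizer (Z : Set G) := mem_normalizer_of_map_conj_eq h5
  have h7 := mul_mem (inv_mem h3) h6
  simpa using h7

/-- Grün-type control: `N_G(Z)` controls conjugation of subgroups of `P` into `P`, for `Z ≤ Z(P)` weakly closed. -/
theorem weaklyClosed_control (P : Sylow p G) (Z : Subgroup G)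
    (hZ : Z ≤ Subgroup.centralizer (P : Set G)) (hW : Cfsg.IsWeaklyClosed Z P)
    (Q : Subgroup G) (hQ : Q ≤ (P : Subgroup G)) (u : G) (hu : ∀ x ∈ Q, u * x * u⁻¹ ∈ (P : Subgroup G)) :
    ∃ w ∈ Subgroup.normalizer (Z : Set G), ∀ x ∈ Q, w * x * w⁻¹ = u * x * u⁻¹ := by
  -- C = centralizer of u Q u⁻¹
  let Q₂ : Subgroup G := Q.map (MulAut.conj u).toMonoidHom
  have hQ₂ : Q₂ ≤ (P : Subgroup G) := by
    rintro _ ⟨x, hx, rfl⟩
    exact hu x hx
  let C : Subgroup G := Subgroup.centralizer (Q₂ : Set G)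
  let Z₂ : Subgroup G := Z.map (MulAut.conj u).toMonoidHom
  have hZP : Z ≤ (P : Subgroup G) := hW.1
  have hZpg : IsPGroup p Z := P.isPGroup'.to_le hZP
  have hZ₂pg : IsPGroup p Z₂ := hZpg.map _
  have hZC : Z ≤ C := by
    intro z hz y hy
    exact ((Subgroup.mem_centralizer_iff.mp (hZ hz)) y (hQ₂ hy)).symm ▸ rfl
  have hZ₂C : Z₂ ≤ C := by
    rintro _ ⟨z, hz, rfl⟩ _ ⟨x, hx, rfl⟩
    have h1 : x * z = z * x := (Subgroup.mem_centralizer_iff.mp (hZ hz)) x (hQ hx)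
    simp only [MulEquiv.coe_toMonoidHom, MulAut.conj_apply]
    calc u * x * u⁻¹ * (u * z * u⁻¹) = u * (x * z) * u⁻¹ := by group
      _ = u * (z * x) * u⁻¹ := by rw [h1]
      _ = _ := by group
  obtain ⟨c, hcC, R, hZR, hR⟩ := exists_conj_common_sylow C Z Z₂ hZpg hZ₂pg hZC hZ₂C
  refine ⟨c * u, ?_, ?_⟩
  · apply weaklyClosed_conj_of_common_sylow P Z hW R hZR
    intro z hz
    have := hR _ (conj_mem_map_conj (g := u) hz)
    simpa [mul_assoc] using this
  · intro x hx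
    have h1 : u * x * u⁻¹ ∈ Q₂ := conj_mem_map_conj hx
    have h2 : c * (u * x * u⁻¹) = (u * x * u⁻¹) * c := (Subgroup.mem_centralizer_iff.mp hcC) _ h1 |>.symm
    calc c * u * x * (c * u)⁻¹ = c * (u * x * u⁻¹) * c⁻¹ := by group
      _ = (u * x * u⁻¹) * c * c⁻¹ := by rw [h2]
      _ = _ := by group

end Cfsg.Agent.Lib.Transfer
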