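import Cfsg.Agent.Lib.Transfer.Frobenius
import Mathlib

/-! Conjugacy of abelian Hall subgroups of equal order (a case of Wielandt's theorem). -/

set_option autoImplicit false

namespace Cfsg.Agent.Lib.Transfer

open Cfsg Cfsg.Agent.Lib.Techniques
open scoped commutatorElement

variable {G : Type*} [Group G] [Finite G]

theorem SylowIn_card_eq_pow {p : ℕ} [Fact p.Prime] {T H : Subgroup G} (hT : SylowIn p T H) :
    Nat.card T = p ^ (Nat.card H).factorization p := by
  have h := Sylow.card_eq_multiplicity hT.toSylow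
  have e1 : Nat.card hT.toSylow = Nat.card T := by
    show Nat.card (T.subgroupOf H) = _
    exact Nat.card_congr (Subgroup.subgroupOfEquivOfLe hT.1).toEquiv
  rw [← e1, h]

theorem isMulCommutative_conjS {H : Subgroup G} (hH : IsMulCommutative H) (g : G) :
    IsMulCommutative (conjS g H) := by
  refine ⟨⟨?_⟩⟩
  rintro ⟨_, a, ha, rfl⟩ ⟨_, b, hb, rfl⟩
  apply Subtype.ext
  have h1 : a * b = b * a := congrArg Subtype.val (hH.is_comm.comm ⟨a, ha⟩ ⟨b, hb⟩)
  show (MulAut.conj g).toMonoidHom a * (MulAut.conj g).toMonoidHom b = (MulAut.conj g).toMonoidHom b * (MulAut.conj g).toMonoidHom a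
  rw [← map_mul, ← map_mul, h1]

theorem le_centralizer_of_comm {H D : Subgroup G} (hH : IsMulCommutative H) (hD : D ≤ H) :
    H ≤ Subgroup.centralizer (D : Set G) := by
  intro x hx
  refine Subgroup.mem_centralizer_iff.mpr fun d hd => ?_
  exact congrArg Subtype.val (hH.is_comm.comm ⟨d, hD hd⟩ ⟨x, hx⟩)

/-- Abelian Hall subgroups of `X` of the same order are `X`-conjugate. -/
theorem abelian_hall_conj (X H : Subgroup G) (hHX : H ≤ X) (hHc : IsMulCommutative H)
    (hcop : Nat.Coprime (Nat.card H) (H.relIndex X)) :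
    ∀ (n : ℕ) (H' : Subgroup G), H' ≤ X → IsMulCommutative H' → Nat.card H' = Nat.card H →
      Nat.card H - Nat.card ↥(H ⊓ H') = n → ∃ c ∈ X, conjS c H' = H := by
  intro n
  induction n using Nat.strong_induction_on with
  | _ n ih =>
  intro H' hH'X hH'c hcard hn
  set D := H ⊓ H' with hD
  have hDH : D ≤ H := inf_le_left
  have hDH' : D ≤ H' := inf_le_right
  by_cases hEq : D = H
  · refine ⟨1, one_mem _, ?_⟩
    rw [conjS_one]
    have hle : H ≤ H' := hEq ▸ hDH'
    exact (Subgroup.eq_of_le_of_card_ge hle hcard.le).symm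
  have hrel : D.relIndex H ≠ 1 := by
    intro h1
    have : H ≤ D := Subgroup.relIndex_eq_one.mp h1
    exact hEq (le_antisymm hDH this)
  obtain ⟨p, hp, hpd⟩ := Nat.exists_prime_and_dvd hrel
  haveI : Fact p.Prime := ⟨hp⟩
  have hpH : p ∣ Nat.card H := hpd.trans (Subgroup.relIndex_dvd_card D H)
  have hpX : ¬ p ∣ H.relIndex X := fun h => hp.one_lt.ne' (Nat.eq_one_of_dvd_coprimes hcop hpH h)
  obtain ⟨P, hP⟩ := exists_sylowIn (p := p) H
  obtain ⟨P', hP'⟩ := exists_sylowIn (p := p) H'
  have hPX : SylowIn p P X := by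
    refine ⟨hP.1.trans hHX, hP.2.1, fun h => ?_⟩
    rw [← Subgroup.relIndex_mul_relIndex P H X hP.1 hHX] at h
    rcases (Nat.Prime.dvd_mul hp).mp h with h | h
    · exact hP.2.2 h
    · exact hpX h
  have hcardP : Nat.card P = Nat.card P' := by
    rw [SylowIn_card_eq_pow hP, SylowIn_card_eq_pow hP', hcard]
  have hP'X : SylowIn p P' X := hPX.of_card_eq (hP'.1.trans hH'X) hP'.2.1 hcardP
  set C := X ⊓ Subgroup.centralizer (D : Set G) with hC
  have hPC : SylowIn p P C := hPX.of_le (le_inf hPX.1 (hP.1.trans (le_centralizer_of_comm hHc hDH))) inf_le_left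
  have hP'C : SylowIn p P' C := hP'X.of_le (le_inf hP'X.1 (hP'.1.trans (le_centralizer_of_comm hH'c hDH'))) inf_le_left
  obtain ⟨c, hc, hcc⟩ := hP'C.exists_conj_eq hPC
  have hcX : c ∈ X := hc.1
  have hcD : c ∈ Subgroup.centralizer (D : Set G) := hc.2
  set H'' := conjS c H' with hH''
  have hH''X : H'' ≤ X := by
    have := conjS_mono c hH'X
    rwa [conjS_eq_of_mem hcX] at this
  have hH''c : IsMulCommutative H'' := isMulCommutative_conjS hH'c c
  have hH''card : Nat.card H'' = Nat.card H := by rw [hH'', card_conjS, hcard]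
  have hDH'' : D ≤ H'' := by
    intro d hd
    rw [hH'', mem_conjS]
    have h1 := Subgroup.mem_centralizer_iff.mp hcD d hd
    have : c⁻¹ * d * c = d := by
      rw [mul_assoc, h1]; group
    rw [this]; exact hDH' hd
  have hPH'' : P ≤ H'' := by
    rw [← hcc]; exact conjS_mono c hP'.1
  have hlt : D < H ⊓ H'' := by
    refine lt_of_le_of_ne (le_inf hDH hDH'') fun h => ?_
    have hPD : P ≤ D := by
      rw [h]; exact le_inf hP.1 hPH''
    apply hP.2.2
    rw [← Subgroup.relIndex_mul_relIndex P D H hPD hDH]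
    exact Dvd.dvd.mul_left hpd _
  have hm : Nat.card H - Nat.card ↥(H ⊓ H'') < n := by
    rw [← hn]
    have h1 : Nat.card D < Nat.card ↥(H ⊓ H'') := Cfsg.Agent.Lib.PGroup.card_lt_card_of_lt hlt
    have h2 : Nat.card ↥(H ⊓ H'') ≤ Nat.card H := Subgroup.card_le_of_le inf_le_left
    omega
  obtain ⟨c', hc', hcc'⟩ := ih _ hm H'' hH''X hH''c hH''card rfl
  refine ⟨c' * c, mul_mem hc' hcX, ?_⟩
  rw [conjS_mul]
  exact hcc'

end Cfsg.Agent.Lib.Transfer
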