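import Mathlib
import Cfsg.Agent.Lib.Transfer.MaxExp

/-!
# Odd `p`-groups with no normal `E_{p^3}` have rank at most two
-/

set_option autoImplicit false

universe u

namespace Cfsg.Agent.Lib.Transfer

open Subgroup
open scoped commutatorElement

variable {p : ℕ} [hp : Fact p.Prime] {P : Type u} [Group P] [Finite P]

/-- Normal subgroups of all smaller orders inside a normal subgroup. -/
theorem exists_normal_card_pow (hR : IsPGroup p P) (N : Subgroup P) [hN : N.Normal] (k : ℕ)
    (hc : p ^ k ≤ Nat.card N) : ∃ M : Subgroup P, M.Normal ∧ M ≤ N ∧ Nat.card M = p ^ k := by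
  have hpp := hp.out
  induction k with
  | zero => exact ⟨⊥, inferInstance, bot_le, by simp⟩
  | succ k ih =>
    obtain ⟨M, hMn, hMN, hMc⟩ := ih ((Nat.pow_le_pow_right hpp.pos (Nat.le_succ k)).trans hc)
    haveI := hMn
    have hne : M ≠ N := by
      intro h
      rw [← h, hMc] at hc
      have := (Nat.pow_le_pow_iff_right hpp.one_lt).1 hc
      omega
    obtain ⟨x, B, hBn, -, hBN, -, -, -, hBc, -, -⟩ := exists_up_step hR hMN hne
    exact ⟨B, hBn, hBN, by rw [hBc, hMc, pow_succ']⟩

theorem rank_le_two_of_no_normal_cube (hodd : p ≠ 2) (hP : IsPGroup p P)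
    (h : ∀ A : Subgroup P, A.Normal → IsMulCommutative A → (∀ a ∈ A, a ^ p = 1) → Nat.card A ≠ p ^ 3)
    (E : Subgroup P) (hE : IsMulCommutative E) (hEe : ∀ e ∈ E, e ^ p = 1) : Nat.card E ≤ p ^ 2 := by
  classical
  have hpp := hp.out
  let F : Set (Subgroup P) := {A | A.Normal ∧ IsMulCommutative A ∧ ∀ a ∈ A, a ^ p = 1}
  have hbot : (⊥ : Subgroup P) ∈ F := ⟨inferInstance, inferInstance, fun a ha => by
    rw [Subgroup.mem_bot] at ha
    rw [ha, one_pow]⟩
  obtain ⟨A, hA⟩ := Set.Finite.exists_maximal (Set.toFinite F) ⟨⊥, hbot⟩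
  obtain ⟨hAn, hAab, hAe⟩ := hA.prop
  haveI := hAn
  have hOmega : ∀ x ∈ centralizer (A : Set P), x ^ p = 1 → x ∈ A := fun x hx hxp =>
    mem_of_max_exp p ⟨1, (pow_one p).symm⟩ hodd hP A hAab hAe
      (fun B h1 h2 h3 h4 => le_antisymm (hA.le_of_ge (⟨h1, h2, h3⟩ : B ∈ F) h4) h4) x hx hxp
  obtain ⟨a, ha⟩ := IsPGroup.iff_card.1 (hP.to_subgroup A)
  have ha2 : a ≤ 2 := by
    by_contra hcon
    push Not at hcon
    obtain ⟨M, hMn, hMA, hMc⟩ := exists_normal_card_pow hP A 3 (by
      rw [ha]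
      exact Nat.pow_le_pow_right hpp.pos hcon)
    refine h M hMn ?_ (fun m hm => hAe m (hMA hm)) hMc
    refine ⟨⟨fun u v => ?_⟩⟩
    apply Subtype.ext
    have := hAab.is_comm.comm (⟨u, hMA u.2⟩ : A) ⟨v, hMA v.2⟩
    exact congrArg (fun t : A => (t : P)) this
  set I := E ⊓ centralizer (A : Set P) with hI
  have hIA : I ≤ A := fun x hx => hOmega x hx.2 (hEe x hx.1)
  have hIE : I ≤ E := inf_le_left
  have hcardE : Nat.card E = Nat.card I * I.relIndex E := by
    have h1 := Subgroup.card_mul_index (I.subgroupOf E)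
    have h2 : Nat.card (I.subgroupOf E) = Nat.card I :=
      Nat.card_congr (Subgroup.subgroupOfEquivOfLe hIE).toEquiv
    rw [h2] at h1
    exact h1.symm
  have hrel : I.relIndex E ≤ p ^ a.choose 2 := by
    have h1 : I.relIndex E = (centralizer (A : Set P)).relIndex E := Subgroup.inf_relIndex_left _ _
    rw [h1]
    have h2 : (centralizer (A : Set P)).relIndex E ∣ (centralizer (A : Set P)).index :=
      Subgroup.relIndex_dvd_index_of_normal _ _
    exact (Nat.le_of_dvd (Nat.pos_of_ne_zero Subgroup.index_ne_zero_of_finite) h2).trans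
      (index_centralizer_le hP A a ha)
  have hIc : Nat.card I ≤ p ^ a := by
    rw [← ha]
    exact Subgroup.card_le_of_le hIA
  have hple : p ^ 1 ≤ p ^ 2 := Nat.pow_le_pow_right hpp.pos (by norm_num)
  interval_cases a
  · simp only [Nat.choose, pow_zero] at hrel hIc
    rw [hcardE]
    calc Nat.card I * I.relIndex E ≤ 1 * 1 := Nat.mul_le_mul hIc hrel
      _ ≤ p ^ 2 := by simpa using Nat.one_le_pow _ _ hpp.pos
  · simp only [Nat.choose, pow_zero, pow_one] at hrel hIc hple
    rw [hcardE]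
    calc Nat.card I * I.relIndex E ≤ p * 1 := Nat.mul_le_mul hIc hrel
      _ = p := mul_one p
      _ ≤ p ^ 2 := hple
  · have h21 : Nat.choose 2 2 = 1 := by norm_num
    rw [h21, pow_one] at hrel
    by_cases hIeq : I = A
    · have hAE : A ≤ E := hIeq ▸ hIE
      have hEC : E ≤ I := by
        intro e he
        refine ⟨he, ?_⟩
        show e ∈ centralizer _
        rw [Subgroup.mem_centralizer_iff]
        intro x hx
        have := hE.is_comm.comm (⟨x, hAE hx⟩ : E) ⟨e, he⟩
        exact congrArg (fun t : E => (t : P)) this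
      have := Subgroup.card_le_of_le (hEC.trans hIA)
      rwa [ha] at this
    · have hdvd : Nat.card I ∣ p ^ 2 := by
        rw [← ha]
        exact Subgroup.card_dvd_of_le hIA
      obtain ⟨j, hj, hj2⟩ := (Nat.dvd_prime_pow hpp).1 hdvd
      have hj3 : j ≠ 2 := by
        rintro rfl
        exact hIeq (Subgroup.eq_of_le_of_card_ge hIA (by rw [hj2, ha]))
      have hj4 : Nat.card I ≤ p := by
        rw [hj2]
        calc p ^ j ≤ p ^ 1 := Nat.pow_le_pow_right hpp.pos (by omega)
          _ = p := pow_one p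
      rw [hcardE, sq]
      exact Nat.mul_le_mul hj4 hrel

end Cfsg.Agent.Lib.Transfer
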