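import Cfsg.Agent.S0105
import Cfsg.Agent.Lib.Transfer.Basic
import Cfsg.Agent.Lib.Transfer.MaxClass
import Cfsg.Agent.Lib.PGroup.PComp
import Mathlib

/-! `O^p(G)` with abelian Sylow `p`-subgroups has a complement in `G`. -/

set_option autoImplicit false

namespace Cfsg.Agent.Lib.Transfer

open Cfsg Subgroup

theorem splitting_core {Y : Type*} [Group Y] [Finite Y] {p : ℕ} [Fact p.Prime]
    (R W : Subgroup Y) [R.Normal] [W.Normal] (hRW : R ≤ W)
    (hRp : IsPGroup p R) (m : ℕ) (hm : Nat.card W = Nat.card R * m) (hmp : m.Coprime p)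
    (hYW : IsPGroup p (Y ⧸ W))
    (hC : ∀ r ∈ R, (∀ w ∈ W, w * r = r * w) → r = 1) (hRc : ∀ a ∈ R, ∀ b ∈ R, a * b = b * a) :
    ∃ S : Subgroup Y, S ⊓ W = ⊥ ∧ S ⊔ W = ⊤ := by
  classical
  have hp : p.Prime := Fact.out
  obtain ⟨j, hj⟩ := IsPGroup.iff_card.mp hRp
  have hcardR' : Nat.card (R.subgroupOf W) = Nat.card R :=
    Nat.card_congr (Subgroup.subgroupOfEquivOfLe hRW).toEquiv
  have hRpos : 0 < Nat.card R := Nat.card_pos
  have hidx' : (R.subgroupOf W).index = m := by
    have h1 := (R.subgroupOf W).card_mul_index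
    rw [hcardR', hm] at h1
    exact Nat.eq_of_mul_eq_mul_left hRpos h1
  have hcop : Nat.Coprime (Nat.card (R.subgroupOf W)) (R.subgroupOf W).index := by
    rw [hcardR', hj, hidx']; exact Nat.Coprime.pow_left _ hmp.symm
  obtain ⟨H, hH⟩ := Subgroup.exists_right_complement'_of_coprime hcop
  set L : Subgroup Y := H.map W.subtype with hL
  have hLW : L ≤ W := by rintro _ ⟨x, _, rfl⟩; exact x.2
  have hcardL : Nat.card L = m := by
    rw [hL, Subgroup.card_map_of_injective W.subtype_injective, ← hH.symm.index_eq_card, hidx']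
  have hLp : (Nat.card L).Coprime p := by rw [hcardL]; exact hmp
  have hdec : ∀ w ∈ W, ∃ r ∈ R, ∃ l ∈ L, w = r * l := by
    intro w hw
    obtain ⟨⟨⟨n, hn⟩, ⟨h, hh⟩⟩, hnh, -⟩ := hH.existsUnique ⟨w, hw⟩
    refine ⟨n, hn, (h : Y), ⟨h, hh, rfl⟩, ?_⟩
    have := congrArg (fun t : W => (t : Y)) hnh
    exact this.symm
  have hdisj : ∀ x, x ∈ L → x ∈ R → x = 1 := by
    intro x hxL hxR
    have h1 : orderOf x ∣ Nat.card L := Subgroup.orderOf_dvd_natCard L hxL
    have h2 : orderOf x ∣ Nat.card R := Subgroup.orderOf_dvd_natCard R hxR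
    rw [hj] at h2
    have hc : (Nat.card L).Coprime (p ^ j) := Nat.Coprime.pow_right j hLp
    have := Nat.eq_one_of_dvd_coprimes hc h1 h2
    exact orderOf_eq_one_iff.mp this
  have hsupW : L ⊔ R = W := by
    apply le_antisymm (sup_le hLW hRW)
    intro w hw
    obtain ⟨r, hr, l, hl, rfl⟩ := hdec w hw
    exact Subgroup.mul_mem _ (Subgroup.mem_sup_right hr) (Subgroup.mem_sup_left hl)
  set T : Subgroup Y := normalizer (L : Set Y) with hT
  have hLT : L ≤ T := Subgroup.le_normalizer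
  -- `Y = R T`
  have hYRT : ∀ y : Y, ∃ r ∈ R, ∃ t ∈ T, y = r * t := by
    intro y
    set W' : Subgroup Y := L.map (MulAut.conj y).toMonoidHom with hW'
    have hW'card : (Nat.card W').Coprime p := by
      rw [hW', Subgroup.card_map_of_injective (MulAut.conj y).injective]; exact hLp
    have hWsup : W' ⊔ R = L ⊔ R := by
      rw [hsupW]
      apply le_antisymm
      · apply sup_le _ hRW
        rintro _ ⟨l, hl, rfl⟩
        have : (MulAut.conj y).toMonoidHom l = y * l * y⁻¹ := rfl
        rw [this]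
        exact ‹W.Normal›.conj_mem l (hLW hl) y
      · intro w hw
        have h1 : y⁻¹ * w * y⁻¹⁻¹ ∈ W := ‹W.Normal›.conj_mem w hw y⁻¹
        obtain ⟨r, hr, l, hl, hrl⟩ := hdec _ h1
        have h3 : y * r * y⁻¹ ∈ R := ‹R.Normal›.conj_mem r hr y
        have h4 : y * l * y⁻¹ ∈ W' := ⟨l, hl, rfl⟩
        have h6 : w = (y * r * y⁻¹) * (y * l * y⁻¹) := by
          simp only [inv_inv] at hrl
          have : w = y * (r * l) * y⁻¹ := by rw [← hrl]; group
          rw [this]; group
        rw [h6]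
        exact Subgroup.mul_mem _ (Subgroup.mem_sup_right h3) (Subgroup.mem_sup_left h4)
    obtain ⟨k, hk, hkw⟩ := Cfsg.Agent.Lib.PGroup.PComp.complement_conj_sub R W' L hRp hW'card hLp hWsup
    refine ⟨k⁻¹, R.inv_mem hk, k * y, ?_, by group⟩
    apply mem_normalizer_of_forall_conj
    intro l hl
    have h1 := hkw (y * l * y⁻¹) ⟨l, hl, rfl⟩
    have e : k * y * l * (k * y)⁻¹ = k * (y * l * y⁻¹) * k⁻¹ := by group
    rw [e]; exact h1
  -- `T ∩ R = 1`
  have hTR : ∀ t ∈ T, t ∈ R → t = 1 := by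
    intro t htT htR
    apply hC t htR
    have hcomm : ∀ l ∈ L, l * t = t * l := by
      intro l hl
      have h1 : t * l * t⁻¹ ∈ L := (Subgroup.mem_normalizer_iff.mp htT l).mp hl
      have h2 : t * l * t⁻¹ * l⁻¹ ∈ L := L.mul_mem h1 (L.inv_mem hl)
      have h3 : t * l * t⁻¹ * l⁻¹ ∈ R := by
        have : t * l * t⁻¹ * l⁻¹ = t * (l * t⁻¹ * l⁻¹) := by group
        rw [this]
        exact R.mul_mem htR (‹R.Normal›.conj_mem _ (R.inv_mem htR) l)
      have h4 := hdisj _ h2 h3
      have h5 : t * l * t⁻¹ = l := by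
        have := congrArg (· * l) h4
        simpa using this
      have h6 : t * l = l * t := by
        have := congrArg (· * t) h5
        simpa using this
      exact h6.symm
    intro w hw
    obtain ⟨r, hr, l, hl, rfl⟩ := hdec w hw
    calc r * l * t = r * (l * t) := by group
      _ = r * (t * l) := by rw [hcomm l hl]
      _ = (r * t) * l := by group
      _ = (t * r) * l := by rw [hRc r hr t htR]
      _ = t * (r * l) := by group
  -- Sylow subgroup of `T`
  obtain ⟨S₀⟩ : Nonempty (Sylow p T) := inferInstance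
  set S : Subgroup Y := (S₀ : Subgroup T).map T.subtype with hS
  have hST : S ≤ T := by rintro _ ⟨x, _, rfl⟩; exact x.2
  have hSp : IsPGroup p S := by
    have : IsPGroup p (S₀ : Subgroup T) := S₀.isPGroup'
    exact this.map T.subtype
  have hTW : ∀ t ∈ T, t ∈ W → t ∈ L := by
    intro t ht htW
    obtain ⟨r, hr, l, hl, rfl⟩ := hdec t htW
    have h1 : r ∈ T := by
      have : r = r * l * l⁻¹ := by group
      rw [this]
      exact T.mul_mem ht (T.inv_mem (hLT hl))
    rw [hTR r h1 hr, one_mul]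
    exact hl
  refine ⟨S, ?_, ?_⟩
  · rw [eq_bot_iff]
    rintro x ⟨hxS, hxW⟩
    have hxL : x ∈ L := hTW x (hST hxS) hxW
    obtain ⟨a, ha⟩ := IsPGroup.iff_card.mp hSp
    have h1 : orderOf x ∣ Nat.card L := Subgroup.orderOf_dvd_natCard L hxL
    have h2 : orderOf x ∣ Nat.card S := Subgroup.orderOf_dvd_natCard S hxS
    rw [ha] at h2
    have hc : (Nat.card L).Coprime (p ^ a) := Nat.Coprime.pow_right a hLp
    have := Nat.eq_one_of_dvd_coprimes hc h1 h2
    exact Subgroup.mem_bot.mpr (orderOf_eq_one_iff.mp this)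
  · rw [eq_top_iff]
    intro y _
    obtain ⟨r, hr, t, ht, rfl⟩ := hYRT y
    refine Subgroup.mul_mem _ (Subgroup.mem_sup_right (hRW hr)) ?_
    -- `T = S (T ∩ W)`
    have hq : IsPGroup p (T ⧸ W.subgroupOf T) := by
      intro q
      induction q using QuotientGroup.induction_on with
      | H x =>
        obtain ⟨k, hk⟩ := hYW ((x : Y) : Y ⧸ W)
        refine ⟨k, ?_⟩
        rw [← QuotientGroup.mk_pow, QuotientGroup.eq_one_iff]
        rw [← QuotientGroup.mk_pow, QuotientGroup.eq_one_iff] at hk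
        exact hk
    have hsup := sup_sylow_eq_top_of_isPGroup_quotient S₀ (W.subgroupOf T) hq
    have hmem : (⟨t, ht⟩ : T) ∈ W.subgroupOf T ⊔ (S₀ : Subgroup T) := by rw [hsup]; trivial
    obtain ⟨a, ha, b, hb, hab⟩ := Subgroup.mem_sup_of_normal_left.mp hmem
    have h1 : t = (a : Y) * (b : Y) := by
      have := congrArg (fun s : T => (s : Y)) hab
      exact this.symm
    rw [h1]
    refine Subgroup.mul_mem _ (Subgroup.mem_sup_right ?_) (Subgroup.mem_sup_left ⟨b, hb, rfl⟩)
    exact ha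

theorem pResidual_pResidual {G : Type*} [Group G] [Finite G] {p : ℕ} [Fact p.Prime] :
    pResidual p (pResidual p G) = ⊤ := by
  rw [eq_top_iff]
  rintro ⟨x, hx⟩ -
  suffices hh : x ∈ (pResidual p (pResidual p G)).map (pResidual p G).subtype by
    obtain ⟨y, hy, rfl⟩ := hh
    exact hy
  have hle : pResidual p G ≤ (pResidual p (pResidual p G)).map (pResidual p G).subtype := by
    apply pResidual_le_of_forall
    intro g hg
    refine ⟨⟨g, mem_pResidual_of_coprime hg⟩, ?_, rfl⟩
    apply mem_pResidual_of_coprime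
    rw [Subgroup.orderOf_mk]
    exact hg
  exact hle hx

theorem exists_complement_pResidual {G : Type*} [Group G] [Finite G] {p : ℕ} [Fact p.Prime]
    (h : ∀ Q : Sylow p (pResidual p G), IsMulCommutative Q) :
    ∃ K : Subgroup G, K.IsComplement' (pResidual p G) := by
  classical
  have hp : p.Prime := Fact.out
  set K₀ : Subgroup G := pResidual p G with hK₀
  haveI hK₀n : K₀.Normal := by
    rw [hK₀]; infer_instance
  obtain ⟨Q⟩ : Nonempty (Sylow p K₀) := inferInstance
  have hQc := h Q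
  set R : Subgroup G := (Q : Subgroup K₀).map K₀.subtype with hR
  have hRK : R ≤ K₀ := by rintro _ ⟨x, _, rfl⟩; exact x.2
  have hfrat : normalizer (R : Set G) ⊔ K₀ = ⊤ := Sylow.normalizer_sup_eq_top Q
  set Y : Subgroup G := normalizer (R : Set G) with hY
  have hRY : R ≤ Y := Subgroup.le_normalizer
  haveI hR'n : (R.subgroupOf Y).Normal := Subgroup.normal_in_normalizer
  haveI hW'n : (K₀.subgroupOf Y).Normal := Subgroup.normal_subgroupOf
  have hRR : Nat.card (R.subgroupOf Y) = Nat.card R :=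
    Nat.card_congr (Subgroup.subgroupOfEquivOfLe hRY).toEquiv
  have hRQ : Nat.card R = Nat.card (Q : Subgroup K₀) :=
    Subgroup.card_map_of_injective K₀.subtype_injective
  have hR'p : IsPGroup p (R.subgroupOf Y) := by
    rw [IsPGroup.iff_card]
    obtain ⟨k, hk⟩ := IsPGroup.iff_card.mp Q.isPGroup'
    exact ⟨k, by rw [hRR, hRQ, hk]⟩
  -- the index
  have hWcard : Nat.card (K₀.subgroupOf Y) = Nat.card ((K₀ ⊓ Y : Subgroup G)) := by
    have : (K₀.subgroupOf Y).map Y.subtype = K₀ ⊓ Y := Subgroup.subgroupOf_map_subtype _ _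
    rw [← this, Subgroup.card_map_of_injective Y.subtype_injective]
  have hRle : R ≤ K₀ ⊓ Y := le_inf hRK hRY
  have hrel : R.relIndex (K₀ ⊓ Y) * (K₀ ⊓ Y).relIndex K₀ = R.relIndex K₀ :=
    Subgroup.relIndex_mul_relIndex _ _ _ hRle inf_le_left
  have hidxQ : R.relIndex K₀ = (Q : Subgroup K₀).index := by
    rw [Subgroup.relIndex, hR]
    congr 1
    rw [Subgroup.subgroupOf, Subgroup.comap_map_eq_self_of_injective K₀.subtype_injective]
  have hcop : (R.relIndex (K₀ ⊓ Y)).Coprime p := by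
    apply Nat.Coprime.symm
    rw [Nat.Prime.coprime_iff_not_dvd hp]
    intro hd
    apply Q.not_dvd_index
    rw [← hidxQ, ← hrel]
    exact hd.trans (dvd_mul_right _ _)
  have hmcard : Nat.card (K₀.subgroupOf Y) = Nat.card (R.subgroupOf Y) * R.relIndex (K₀ ⊓ Y) := by
    rw [hWcard, hRR, Subgroup.relIndex]
    have h1 := (R.subgroupOf (K₀ ⊓ Y)).card_mul_index
    rw [← h1]
    congr 1
    exact Nat.card_congr (Subgroup.subgroupOfEquivOfLe hRle).toEquiv
  have hRW : R.subgroupOf Y ≤ K₀.subgroupOf Y := fun x hx => hRK hx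
  have hYW : IsPGroup p (Y ⧸ K₀.subgroupOf Y) := by
    intro q
    induction q using QuotientGroup.induction_on with
    | H x =>
      obtain ⟨k, hk⟩ := (isPGroup_quotient_pResidual (p := p) (G := G)) ((x : G) : G ⧸ pResidual p G)
      refine ⟨k, ?_⟩
      rw [← QuotientGroup.mk_pow, QuotientGroup.eq_one_iff]
      rw [← QuotientGroup.mk_pow, QuotientGroup.eq_one_iff] at hk
      exact hk
  -- `Z(N_{K₀}(Q)) ∩ Q = 1`
  have hZ : ∀ r ∈ (Q : Subgroup K₀), r ∈ Subgroup.centralizer (Subgroup.normalizer ((Q : Subgroup K₀) : Set K₀) : Set K₀) → r = 1 := by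
    obtain ⟨N, hN, ⟨e⟩⟩ := Cfsg.Agent.S0105.result Q hQc
    haveI := hN
    have hqp : IsPGroup p (K₀ ⧸ N) := by
      intro x
      obtain ⟨k, hk⟩ := Q.isPGroup' ⟨(e x : K₀), (e x).2.1⟩
      refine ⟨k, ?_⟩
      apply e.injective
      rw [map_pow, map_one]
      apply Subtype.ext
      have := congrArg (fun t : (Q : Subgroup K₀) => (t : K₀)) hk
      simpa using this
    have hle : pResidual p K₀ ≤ (QuotientGroup.mk' N).ker := pResidual_le_ker hqp (QuotientGroup.mk' N)
    have htop : pResidual p K₀ = ⊤ := pResidual_pResidual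
    rw [htop, top_le_iff, QuotientGroup.ker_mk'] at hle
    intro r hr hrc
    have h1 : ∀ x : K₀ ⧸ N, x = 1 := by
      intro x
      induction x using QuotientGroup.induction_on with
      | H x =>
        rw [QuotientGroup.eq_one_iff, hle]; trivial
    have h2 := h1 (e.symm ⟨r, hr, hrc⟩)
    have h3 : (⟨r, hr, hrc⟩ : ((Q : Subgroup K₀) ⊓ Subgroup.centralizer (Subgroup.normalizer ((Q : Subgroup K₀) : Set K₀) : Set K₀) : Subgroup K₀)) = 1 := by
      have := congrArg e h2
      simpa using this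
    exact congrArg (fun t : ((Q : Subgroup K₀) ⊓ Subgroup.centralizer (Subgroup.normalizer ((Q : Subgroup K₀) : Set K₀) : Set K₀) : Subgroup K₀) => (t : K₀)) h3
  have hC : ∀ r ∈ R.subgroupOf Y, (∀ w ∈ K₀.subgroupOf Y, w * r = r * w) → r = 1 := by
    intro r hr hcomm
    obtain ⟨q, hq, hqr⟩ : (r : G) ∈ R := hr
    have hq1 : q = 1 := by
      apply hZ q hq
      rw [Subgroup.mem_centralizer_iff]
      intro w hw
      have hw' : (w : G) ∈ Y := by
        rw [hY, Subgroup.mem_normalizer_iff]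
        intro x
        constructor
        · rintro ⟨a, ha, rfl⟩
          have := (Subgroup.mem_normalizer_iff.mp hw a).mp ha
          exact ⟨_, this, by simp⟩
        · rintro ⟨a, ha, hax⟩
          have hxK : x ∈ K₀ := by
            have : x = (w : G)⁻¹ * (a : G) * (w : G) := by
              have : (a : G) = (w : G) * x * (w : G)⁻¹ := hax
              rw [this]; group
            rw [this]
            exact K₀.mul_mem (K₀.mul_mem (K₀.inv_mem w.2) a.2) w.2
          refine ⟨⟨x, hxK⟩, ?_, rfl⟩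
          apply (Subgroup.mem_normalizer_iff.mp hw _).mpr
          have : w * (⟨x, hxK⟩ : K₀) * w⁻¹ = a := by
            apply Subtype.ext
            simpa using hax.symm
          rw [this]; exact ha
      have hwW : (⟨(w : G), hw'⟩ : Y) ∈ K₀.subgroupOf Y := by
        change (w : G) ∈ K₀
        exact w.2
      have h2 := hcomm _ hwW
      apply Subtype.ext
      have h3 := congrArg (fun t : Y => (t : G)) h2
      change (w : G) * (r : G) = (r : G) * (w : G) at h3
      rw [← hqr] at h3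
      exact h3
    apply Subtype.ext
    rw [← hqr, hq1]; rfl
  have hRc : ∀ a ∈ R.subgroupOf Y, ∀ b ∈ R.subgroupOf Y, a * b = b * a := by
    intro a ha b hb
    obtain ⟨a', ha', hae⟩ : (a : G) ∈ R := ha
    obtain ⟨b', hb', hbe⟩ : (b : G) ∈ R := hb
    apply Subtype.ext
    change (a : G) * (b : G) = (b : G) * (a : G)
    have h1 : (⟨a', ha'⟩ : (Q : Subgroup K₀)) * ⟨b', hb'⟩ = ⟨b', hb'⟩ * ⟨a', ha'⟩ := hQc.is_comm.comm _ _
    have h2 := congrArg (fun t : (Q : Subgroup K₀) => ((t : K₀) : G)) h1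
    rw [← hae, ← hbe]
    exact h2
  obtain ⟨S, hS1, hS2⟩ := splitting_core (p := p) (R.subgroupOf Y) (K₀.subgroupOf Y) hRW hR'p _ hmcard hcop hYW hC hRc
  refine ⟨S.map Y.subtype, ?_⟩
  apply Subgroup.isComplement'_of_disjoint_and_mul_eq_univ
  · rw [Subgroup.disjoint_def]
    rintro x ⟨s, hs, rfl⟩ hxK
    have h1 : s ∈ S ⊓ K₀.subgroupOf Y := ⟨hs, hxK⟩
    rw [hS1] at h1
    have := Subgroup.mem_bot.mp h1
    rw [this]; rfl
  · rw [Set.eq_univ_iff_forall]
    intro g
    have hg : g ∈ Y ⊔ K₀ := by rw [hfrat]; trivial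
    obtain ⟨y, hy, k, hk, rfl⟩ := Subgroup.mem_sup_of_normal_right.mp hg
    have hy' : (⟨y, hy⟩ : Y) ∈ S ⊔ K₀.subgroupOf Y := by rw [hS2]; trivial
    obtain ⟨s, hs, w, hw, hsw⟩ := Subgroup.mem_sup_of_normal_right.mp hy'
    have h1 : y = (s : G) * (w : G) := by
      have := congrArg (fun t : Y => (t : G)) hsw
      exact this.symm
    refine Set.mem_mul.mpr ⟨(s : G), ⟨s, hs, rfl⟩, (w : G) * k, K₀.mul_mem hw hk, ?_⟩
    rw [h1]; group

end Cfsg.Agent.Lib.Transfer
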